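import Cfsg.Agent.Lib.Chev.Tw.F4b
import Cfsg.Agent.Lib.Chev.Tw.Tor4

/-!
The torus of ²F₄(q).
-/

set_option autoImplicit false
set_option maxRecDepth 1000000
set_option linter.unusedSimpArgs false
set_option linter.unusedVariables false
set_option linter.unusedSectionVars false

namespace Cfsg.Agent.Lib.Chev.TwF4

open Cfsg Cfsg.Lie Matrix Cfsg.Agent.Lib.BN Cfsg.Agent.Lib.Chev.Tw TabF4

theorem neg_cartan_chk : (allLt 2 fun i => allLt 48 fun s =>
    decide (chevF4.cartan (i + 1) (ppT W [1, 2, 1, 2] s) = -chevF4.cartan (i + 1) s)) = true := by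
  decide +kernel

theorem neg_cart (i : Fin chevF4.rank) (hi1 : i.val = 1 ∨ i.val = 2) (s : Fin chevF4.nroots) :
    chevF4.cartan i (good3.toGood2.pp (ww 1) s) = -chevF4.cartan i s := by
  have hi' : i.val - 1 < 2 := by omega
  have h := (allLt_iff _ _).mp neg_cartan_chk (i.val - 1) hi'
  have h2 := (allLt_iff _ _).mp h s.val s.isLt
  have h3 := of_decide_eq_true h2
  have e : i.val - 1 + 1 = i.val := by omega
  rw [e] at h3
  rw [good3.pp_val]
  exact h3

section

variable {K : Type*} [Field K] [CharP K 2] (f : K ≃+* K)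

/-- The parameters of the torus. -/
noncomputable def gc : Kˣ × Kˣ →* (Fin chevF4.rank → Kˣ) where
  toFun x i := if i.val = 0 then Units.map (f : K →* K) x.1 else if i.val = 1 then Units.map (f : K →* K) x.2
    else if i.val = 2 then x.2 else x.1
  map_one' := by
    funext i
    simp
  map_mul' a b := by
    funext i
    by_cases h0 : i.val = 0
    · simp [h0]
    · by_cases h1 : i.val = 1
      · simp [h1]
      · by_cases h2 : i.val = 2
        · simp [h2]
        · simp [h0, h1, h2]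

theorem rho_bij : Function.Bijective (TT f).ρi := by
  apply Finite.injective_iff_bijective.mp
  rintro ⟨a, ha⟩ ⟨b, hb⟩ h
  have h' := congrArg Fin.val h
  have ha2 : a < 4 := ha
  have hb2 : b < 4 := hb
  change excI.getD a 0 = excI.getD b 0 at h'
  apply Fin.ext
  interval_cases a <;> interval_cases b <;> simp_all [excI]

theorem phi1 (t : K) : (TT f).φ (chevF4.simple 1) t = f t ^ 2 := by
  show excφ 2 f (exc.lam (chevF4.simple 1)) t = _
  have : chevF4.simple 1 = 27 := by decide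
  rw [this, lam_27, excφ_p]

theorem phi2 (t : K) : (TT f).φ (chevF4.simple 2) t = f t := by
  show excφ 2 f (exc.lam (chevF4.simple 2)) t = _
  have : chevF4.simple 2 = 25 := by decide
  rw [this, lam_25, excφ_one]

/-- The action of the twisting automorphism on the torus. -/
theorem s_tor {c c' : Fin chevF4.rank → Kˣ}
    (h0 : ((c' ⟨3, n3⟩ : Kˣ) : K) = f (c ⟨0, n0⟩) ^ 2) (h1 : ((c' ⟨2, n2⟩ : Kˣ) : K) = f (c ⟨1, n1⟩) ^ 2)
    (h2 : ((c' ⟨1, n1⟩ : Kˣ) : K) = f (c ⟨2, n2⟩)) (h3 : ((c' ⟨0, n0⟩ : Kˣ) : K) = f (c ⟨3, n3⟩)) :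
    (TT f).s (good3.toGood2.torusHom c) = good3.toGood2.torusHom c' := by
  apply (TT f).s_torus (rho_bij f)
  rintro ⟨i, hi⟩
  have hi2 : i < 4 := hi
  interval_cases i
  · exact h0.trans (phi0 f _).symm
  · exact h1.trans (phi1 f _).symm
  · exact h2.trans (phi2 f _).symm
  · exact h3.trans (phi3 f _).symm

theorem torus_inj : Function.Injective (good3.toGood2.torusHom (F := K)) :=
  good3.toGood2.torus_inj (matOf 4 [[2, 3, 4, 2], [3, 6, 8, 4], [2, 4, 6, 3], [1, 2, 3, 2]]) (by decide +kernel)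

theorem gc_inj : Function.Injective (good3.toGood2.torusHom.comp (gc f)) := by
  rintro ⟨a, b⟩ ⟨a', b'⟩ h
  have h1 := torus_inj h
  have h2 := congrFun h1 ⟨3, n3⟩
  have h3 := congrFun h1 ⟨2, n2⟩
  simp [gc] at h2 h3
  rw [h2, h3]

variable (hf2 : ∀ t, f (f t) ^ 2 = t)
include hf2

theorem s_gc (x : Kˣ × Kˣ) : (TT f).s (good3.toGood2.torusHom (gc f x)) = good3.toGood2.torusHom (gc f x) := by
  apply s_tor f
  · simp [gc, hf2]
  · simp [gc, hf2]
  · simp [gc]
  · simp [gc]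

theorem fix_form {c : Fin chevF4.rank → Kˣ} (h : (TT f).s (good3.toGood2.torusHom c) = good3.toGood2.torusHom c) :
    c = gc f (c ⟨3, n3⟩, c ⟨2, n2⟩) := by
  have h1 : (TT f).s (good3.toGood2.torusHom c) =
      good3.toGood2.torusHom (fun i => if i.val = 0 then Units.map (f : K →* K) (c ⟨3, n3⟩)
        else if i.val = 1 then Units.map (f : K →* K) (c ⟨2, n2⟩)
        else if i.val = 2 then (Units.map (f : K →* K) (c ⟨1, n1⟩)) ^ 2 else (Units.map (f : K →* K) (c ⟨0, n0⟩)) ^ 2) := by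
    apply s_tor f
    · simp
    · simp
    · simp
    · simp
  rw [h1] at h
  have h2 := torus_inj h
  funext ⟨i, hi⟩
  have hi2 : i < 4 := hi
  have h3 := congrFun h2 ⟨i, hi⟩
  interval_cases i
  · simpa [gc] using h3.symm
  · simpa [gc] using h3.symm
  · simp [gc]
  · simp [gc]

theorem sq_mem (v : Kˣ) : good3.toGood2.torusHom (gc f (1, v)) * good3.toGood2.torusHom (gc f (1, v)) ∈ (TT f).AA JJ := by
  have S := sys f hf2
  apply S.sq_mem_of_inv (S.nJ_A 1) (good3.toGood2.torusHom_mem _) (s_gc f hf2 _)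
  apply good3.toGood2.conj_torus_inv (S.nJ_N0 1) (S.nJ_mono 1)
  rintro ⟨i, hi⟩
  have hi2 : i < 4 := hi
  interval_cases i
  · left
    simp [gc]
  · right
    exact neg_cart _ (Or.inl rfl)
  · right
    exact neg_cart _ (Or.inr rfl)
  · left
    simp [gc]

theorem orth03 : [(⟨0, n0⟩ : Fin chevF4.rank), ⟨3, n3⟩].Pairwise (good3.OrthN K) := by
  simp only [List.pairwise_cons, List.mem_singleton, forall_eq, List.not_mem_nil, false_imp_iff, implies_true, and_true,
    List.Pairwise.nil]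
  exact Good3.OrthN.of_chk good3 (by decide +kernel)

theorem mem0 (u : Kˣ) : good3.toGood2.torusHom (gc f (u, 1)) ∈ (TT f).AA JJ := by
  have S := sys f hf2
  have key : ∀ c : Fin chevF4.rank → Kˣ, (∃ v : Kˣ, c = gc f (v, 1)) →
      good3.xL [(⟨0, n0⟩ : Fin chevF4.rank), ⟨3, n3⟩] c ∈ (TT f).XJ (JJ 0) := by
    rintro _ ⟨v, rfl⟩
    refine (X0_iff f hf2).mpr ⟨v, ?_⟩
    simp [Good3.xL, gc]
  have h := S.torus_of_X (invD f hf2) 0 _ (orth03 f hf2) (c := gc f (u, 1)) (key _ ⟨u, rfl⟩)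
    (key _ ⟨u⁻¹, by rw [← map_inv]; simp⟩) (key _ ⟨1, by rw [show ((1 : Kˣ), (1 : Kˣ)) = 1 from rfl, map_one]⟩)
  have e : Good3.tL [(⟨0, n0⟩ : Fin chevF4.rank), ⟨3, n3⟩] (gc f (u, 1)) = gc f (u, 1) := by
    funext ⟨i, hi⟩
    have hi2 : i < 4 := hi
    interval_cases i <;> simp [Good3.tL, gc, Pi.mulSingle_apply]
  rwa [e] at h

theorem mem1 (v : Kˣ) : good3.toGood2.torusHom (gc f (1, v)) ∈ (TT f).AA JJ := by
  have hw : ((f (f (v : K)) : K)) ≠ 0 := by simp
  have e : (1, v) = ((1 : Kˣ), Units.mk0 _ hw) * (1, Units.mk0 _ hw) := by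
    ext
    · simp
    · simp [← pow_two, hf2]
  rw [e, map_mul, map_mul]
  exact sq_mem f hf2 _

theorem H1_eq : chevF4.diagonalSubgroup K ⊓ (TT f).AA JJ = (good3.toGood2.torusHom.comp (gc f)).range := by
  apply le_antisymm
  · rintro g ⟨h1, h2⟩
    rw [← good3.toGood2.torusHom_range] at h1
    obtain ⟨c, rfl⟩ := h1
    have h3 := fix_form f hf2 ((sys f hf2).A_fix h2)
    rw [h3]
    exact ⟨_, rfl⟩
  · rintro _ ⟨⟨u, v⟩, rfl⟩
    refine ⟨good3.toGood2.torusHom_mem _, ?_⟩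
    have e : (u, v) = (u, (1 : Kˣ)) * (1, v) := by simp
    rw [e]
    simp only [MonoidHom.comp_apply, map_mul]
    exact Subgroup.mul_mem _ (mem0 f hf2 u) (mem1 f hf2 v)

theorem card_H1 [Finite K] : Nat.card ↥(chevF4.diagonalSubgroup K ⊓ (TT f).AA JJ) = Nat.card Kˣ ^ 2 := by
  rw [H1_eq f hf2, ← Nat.card_congr (MonoidHom.ofInjective (gc_inj f)).toEquiv, Nat.card_prod, pow_two]

end

end Cfsg.Agent.Lib.Chev.TwF4
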