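import Cfsg.Agent.Lib.Chev.Tw.F4c
import Cfsg.Agent.Lib.Chev.Tw.F4d
import Cfsg.Agent.Lib.Chev.Tw.Poly

/-!
The order of ²F₄(q).
-/

set_option autoImplicit false
set_option maxRecDepth 1000000
set_option linter.unusedSimpArgs false
set_option linter.unusedVariables false
set_option linter.unusedSectionVars false

namespace Cfsg.Agent.Lib.Chev.TwF4

open Cfsg Cfsg.Lie Matrix Cfsg.Agent.Lib.BN Cfsg.Agent.Lib.Chev.Tw TabF4

/-- The weights of the letters. -/
def wtF : Fin 2 → ℕ := ![1, 2]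

theorem poly_chk : pMul (pWt wtF (words.map (TwSys.LF 2))) (pBin 1 (-1)) = pMul (pBin 3 1) (pMul (pBin 4 (-1)) (pBin 6 1)) := by
  decide +kernel

variable {K : Type*} [Field K] [CharP K 2] [Fintype K] (f : K ≃+* K) (hf2 : ∀ t, f (f t) ^ 2 = t)
include hf2

theorem card_G : (Nat.card ↥((TT f).AA JJ) : ℤ) = (Fintype.card K : ℤ) ^ 12 * ((Fintype.card K : ℤ) - 1) *
    (((Fintype.card K : ℤ) ^ 3 + 1) * (((Fintype.card K : ℤ) ^ 4 + -1) * ((Fintype.card K : ℤ) ^ 6 + 1))) := by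
  have S := sys f hf2
  have hN : ∀ i : Fin 2, Nat.card ↥((TT f).XJ (JJ i)) = Fintype.card K ^ wtF i := by
    intro i
    fin_cases i
    · simpa [wtF, JJ] using card_X0 f hf2
    · simpa [wtF, JJ] using card_X1 f hf2
  have hq1 : 1 ≤ Fintype.card K := Fintype.card_pos
  have h1 := congrArg (pEval · (Fintype.card K : ℤ)) poly_chk
  simp only [pEval_mul, pEval_pBin] at h1
  rw [S.card_AA (wtab f hf2), S.card_B1 (long f hf2), card_U1 f hf2, card_H1 f hf2, Nat.card_units, Nat.card_eq_fintype_card]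
  rw [Nat.cast_mul, pEval_pWt wtF _ (Fintype.card K) _ hN]
  push_cast [Nat.cast_sub hq1]
  rw [← h1]
  ring

end Cfsg.Agent.Lib.Chev.TwF4
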