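import Cfsg.Agent.Lib.Chev.Tw.D4b
import Cfsg.Agent.Lib.Chev.Tw.Tor4
import Cfsg.Agent.Lib.Chev.Tw.FixU

/-!
The torus of ³D₄(q).
-/

set_option autoImplicit false
set_option maxRecDepth 1000000
set_option linter.unusedSimpArgs false
set_option linter.unusedVariables false
set_option linter.unusedSectionVars false

namespace Cfsg.Agent.Lib.Chev.TwD4

open Cfsg Cfsg.Lie Matrix Cfsg.Agent.Lib.BN Cfsg.Agent.Lib.Chev.Tw TabD4

variable {K : Type*} [Field K]

/-- The nodes. -/
def n0 : Fin chevD4.rank := ⟨0, h0⟩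
/-- The nodes. -/
def n1 : Fin chevD4.rank := ⟨1, h1⟩
/-- The nodes. -/
def n2 : Fin chevD4.rank := ⟨2, h2⟩
/-- The nodes. -/
def n3 : Fin chevD4.rank := ⟨3, h3⟩

theorem rho_bij (f : K ≃+* K) : Function.Bijective (TT f).ρi := by
  apply Finite.injective_iff_bijective.mp
  rintro ⟨a, ha⟩ ⟨b, hb⟩ h
  have h' := congrArg Fin.val h
  have ha2 : a < 4 := ha
  have hb2 : b < 4 := hb
  change gRi.getD a 0 = gRi.getD b 0 at h'
  apply Fin.ext
  interval_cases a <;> interval_cases b <;> first | rfl | (exfalso; revert h'; decide)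

/-- The action of the twisting automorphism on the torus. -/
theorem s_tor (f : K ≃+* K) {c c' : Fin chevD4.rank → Kˣ}
    (e0 : ((c' n2 : Kˣ) : K) = f (c n0)) (e1 : ((c' n1 : Kˣ) : K) = f (c n1))
    (e2 : ((c' n3 : Kˣ) : K) = f (c n2)) (e3 : ((c' n0 : Kˣ) : K) = f (c n3)) :
    (TT f).s (good3.toGood2.torusHom c) = good3.toGood2.torusHom c' := by
  apply (TT f).s_torus (rho_bij f)
  rintro ⟨i, hi⟩
  have hi2 : i < 4 := hi
  interval_cases i
  · exact e0
  · exact e1
  · exact e2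
  · exact e3

theorem ce00 : cartanFin chevD4 n0 n0 = 2 := by decide +kernel
theorem ce01 : cartanFin chevD4 n0 n1 = -1 := by decide +kernel
theorem ce02 : cartanFin chevD4 n0 n2 = 0 := by decide +kernel
theorem ce03 : cartanFin chevD4 n0 n3 = 0 := by decide +kernel
theorem ce10 : cartanFin chevD4 n1 n0 = -1 := by decide +kernel
theorem ce11 : cartanFin chevD4 n1 n1 = 2 := by decide +kernel
theorem ce12 : cartanFin chevD4 n1 n2 = -1 := by decide +kernel
theorem ce13 : cartanFin chevD4 n1 n3 = -1 := by decide +kernel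
theorem ce20 : cartanFin chevD4 n2 n0 = 0 := by decide +kernel
theorem ce21 : cartanFin chevD4 n2 n1 = -1 := by decide +kernel
theorem ce22 : cartanFin chevD4 n2 n2 = 2 := by decide +kernel
theorem ce23 : cartanFin chevD4 n2 n3 = 0 := by decide +kernel
theorem ce30 : cartanFin chevD4 n3 n0 = 0 := by decide +kernel
theorem ce31 : cartanFin chevD4 n3 n1 = -1 := by decide +kernel
theorem ce32 : cartanFin chevD4 n3 n2 = 0 := by decide +kernel
theorem ce33 : cartanFin chevD4 n3 n3 = 2 := by decide +kernel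

theorem act_eqs (z : Fin chevD4.rank → Kˣ) :
    act (cartanFin chevD4) z = 1 ↔ (z n0 ^ 2 * (z n1)⁻¹ = 1 ∧ (z n0)⁻¹ * z n1 ^ 2 * (z n2)⁻¹ * (z n3)⁻¹ = 1 ∧ (z n1)⁻¹ * z n2 ^ 2 = 1 ∧ (z n1)⁻¹ * z n3 ^ 2 = 1) := by
  have key : ∀ j : Fin chevD4.rank, act (cartanFin chevD4) z j = z n0 ^ cartanFin chevD4 n0 j * z n1 ^ cartanFin chevD4 n1 j * z n2 ^ cartanFin chevD4 n2 j *
      z n3 ^ cartanFin chevD4 n3 j := by
    intro j
    rw [act_apply]
    exact Fin.prod_univ_four (fun i : Fin 4 => z i ^ cartanFin chevD4 i j)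
  have k0 := key n0
  have k1 := key n1
  have k2 := key n2
  have k3 := key n3
  simp only [ce00, ce10, ce20, ce30, ce01, ce11, ce21, ce31, ce02, ce12, ce22, ce32, ce03, ce13, ce23, ce33,
    zpow_zero, one_mul, mul_one, _root_.zpow_neg, zpow_one, zpow_ofNat, pow_zero, pow_one] at k0 k1 k2 k3
  constructor
  · intro h
    have hh := fun j => congrFun h j
    refine ⟨?_, ?_, ?_, ?_⟩
    · rw [← k0]
      exact hh n0
    · rw [← k1]
      exact hh n1
    · rw [← k2]
      exact hh n2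
    · rw [← k3]
      exact hh n3
  · rintro ⟨e0, e1, e2, e3⟩
    funext ⟨j, hj⟩
    have hj2 : j < 4 := hj
    interval_cases j
    · exact k0.trans e0
    · exact k1.trans e1
    · exact k2.trans e2
    · exact k3.trans e3

theorem ker_iff (z : Fin chevD4.rank → Kˣ) :
    good3.toGood2.torusHom z = 1 ↔ (z n0 ^ 2 * (z n1)⁻¹ = 1 ∧ (z n0)⁻¹ * z n1 ^ 2 * (z n2)⁻¹ * (z n3)⁻¹ = 1 ∧ (z n1)⁻¹ * z n2 ^ 2 = 1 ∧ (z n1)⁻¹ * z n3 ^ 2 = 1) := by
  rw [← act_eqs, ← MonoidHom.mem_ker, good3.toGood2.torusHom_ker, MonoidHom.mem_ker]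

theorem solve_ker {Γ : Type*} [CommGroup Γ] {a b c d : Γ} (h0 : a ^ 2 * b⁻¹ = 1) (h1 : a⁻¹ * b ^ 2 * c⁻¹ * d⁻¹ = 1)
    (h2 : b⁻¹ * c ^ 2 = 1) (h3 : b⁻¹ * d ^ 2 = 1) : b = 1 ∧ a ^ 2 = 1 ∧ c ^ 2 = 1 ∧ d ^ 2 = 1 ∧ a * c * d = 1 := by
  have ha : a ^ 2 = b := mul_inv_eq_one.mp h0
  have hc : c ^ 2 = b := (inv_mul_eq_one.mp h2).symm
  have hd : d ^ 2 = b := (inv_mul_eq_one.mp h3).symm
  have hb2 : b ^ 2 = a * c * d := by
    calc b ^ 2 = (a * a⁻¹) * b ^ 2 * (c * c⁻¹) * (d * d⁻¹) := by simp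
      _ = a * c * d * (a⁻¹ * b ^ 2 * c⁻¹ * d⁻¹) := by ac_rfl
      _ = a * c * d := by rw [h1, mul_one]
  have hb : b = 1 := by
    have e1 : (a * c * d) ^ 2 = b * b * b := by rw [mul_pow, mul_pow, ha, hc, hd]
    rw [← hb2] at e1
    have e2 : b * (b * b * b) = 1 * (b * b * b) := by
      calc b * (b * b * b) = (b ^ 2) ^ 2 := by
            rw [← pow_mul]
            simp only [pow_succ, pow_zero, one_mul, mul_assoc]
        _ = b * b * b := e1
        _ = _ := by simp
    exact mul_right_cancel e2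
  subst hb
  refine ⟨rfl, ha, hc, hd, ?_⟩
  rw [← hb2]
  simp

theorem triple_rel {Γ : Type*} [CommGroup Γ] {a b c : Γ} (ha : a ^ 2 = 1) (h : a * b * c = 1) : b * c = a := by
  have haa : a * a = 1 := by rw [← pow_two]; exact ha
  calc b * c = (a * a) * (b * c) := by rw [haa, one_mul]
    _ = a * (a * b * c) := by ac_rfl
    _ = a := by rw [h, mul_one]

section

variable (f : K ≃+* K)

omit [Field K] in
theorem sq_fix {K : Type*} [Field K] (f : K ≃+* K) {δ : Kˣ} (h : δ ^ 2 = 1) : Units.map (f : K →* K) δ = δ := by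
  have h1 : (δ : K) * δ = 1 := by
    have := congrArg (fun x : Kˣ => (x : K)) h
    simpa [pow_two] using this
  rcases mul_self_eq_one_iff.mp h1 with h2 | h2
  · have : δ = 1 := Units.ext h2
    rw [this, map_one]
  · have : δ = -1 := Units.ext (by simpa using h2)
    rw [this]
    exact Units.ext (by simp)

/-- The parameters of the torus. -/
noncomputable def gc : ↥(fixU f) × Kˣ →* (Fin chevD4.rank → Kˣ) where
  toFun x i := if i.val = 1 then (x.1 : Kˣ) else if i.val = 0 then x.2 else if i.val = 2 then Units.map (f : K →* K) x.2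
    else Units.map (f : K →* K) (Units.map (f : K →* K) x.2)
  map_one' := by
    funext i
    simp
  map_mul' a b := by
    funext i
    by_cases h0 : i.val = 1
    · simp [h0]
    · by_cases h1 : i.val = 0
      · simp [h1]
      · by_cases h2 : i.val = 2
        · simp [h2]
        · simp [h0, h1, h2]

theorem gc_n0 (x : ↥(fixU f) × Kˣ) : gc f x n0 = x.2 := rfl
theorem gc_n1 (x : ↥(fixU f) × Kˣ) : gc f x n1 = x.1 := rfl
theorem gc_n2 (x : ↥(fixU f) × Kˣ) : gc f x n2 = Units.map (f : K →* K) x.2 := rfl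
theorem gc_n3 (x : ↥(fixU f) × Kˣ) : gc f x n3 = Units.map (f : K →* K) (Units.map (f : K →* K) x.2) := rfl

variable (hf3 : ∀ t, f (f (f t)) = t)
include hf3

theorem s_gc (x : ↥(fixU f) × Kˣ) : (TT f).s (good3.toGood2.torusHom (gc f x)) = good3.toGood2.torusHom (gc f x) := by
  apply s_tor f
  · rw [gc_n2, gc_n0]
    rfl
  · rw [gc_n1]
    exact x.1.2.symm
  · rw [gc_n3, gc_n2]
    rfl
  · rw [gc_n0, gc_n3]
    simp [hf3]

omit hf3 in
/-- The twisted parameters. -/
noncomputable def twc (c : Fin chevD4.rank → Kˣ) : Fin chevD4.rank → Kˣ := fun i =>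
  if i.val = 0 then Units.map (f : K →* K) (c n3) else if i.val = 1 then Units.map (f : K →* K) (c n1)
  else if i.val = 2 then Units.map (f : K →* K) (c n0) else Units.map (f : K →* K) (c n2)

omit hf3 in
theorem s_twc (c : Fin chevD4.rank → Kˣ) : (TT f).s (good3.toGood2.torusHom c) = good3.toGood2.torusHom (twc f c) := by
  apply s_tor f <;> rfl

theorem fix_form {c : Fin chevD4.rank → Kˣ} (h : (TT f).s (good3.toGood2.torusHom c) = good3.toGood2.torusHom c) :
    ∃ x, good3.toGood2.torusHom c = good3.toGood2.torusHom (gc f x) := by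
  rw [s_twc] at h
  set δ := twc f c * c⁻¹ with hδ
  have hker : good3.toGood2.torusHom δ = 1 := by
    rw [hδ, map_mul, map_inv, h, mul_inv_cancel]
  obtain ⟨a0, a1, a2, a3⟩ := (ker_iff δ).mp hker
  obtain ⟨b1, b0, b2, b3, b4⟩ := solve_ker a0 a1 a2 a3
  have d0 : δ n0 = Units.map (f : K →* K) (c n3) * (c n0)⁻¹ := rfl
  have d1 : δ n1 = Units.map (f : K →* K) (c n1) * (c n1)⁻¹ := rfl
  have d2 : δ n2 = Units.map (f : K →* K) (c n0) * (c n2)⁻¹ := rfl
  have d3 : δ n3 = Units.map (f : K →* K) (c n2) * (c n3)⁻¹ := rfl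
  have f0 := sq_fix f b0
  have f2 := sq_fix f b2
  have f3 := sq_fix f b3
  -- the correction
  let z : Fin chevD4.rank → Kˣ := fun i => if i.val = 0 then δ n3 else if i.val = 1 then 1 else if i.val = 2 then δ n0 else δ n2
  have z0 : z n0 = δ n3 := rfl
  have z1 : z n1 = 1 := rfl
  have z2 : z n2 = δ n0 := rfl
  have z3 : z n3 = δ n2 := rfl
  have hz : good3.toGood2.torusHom z = 1 := by
    rw [ker_iff, z0, z1, z2, z3]
    refine ⟨by simpa using b3, ?_, by simpa using b0, by simpa using b2⟩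
    simp only [one_pow, mul_one]
    rw [← _root_.mul_inv_rev, ← _root_.mul_inv_rev, inv_eq_one]
    rw [← b4]
    ac_rfl
  have fix : twc f (c * z) = c * z := by
    have e0 : Units.map (f : K →* K) (c n3) = δ n0 * c n0 := by rw [d0]; group
    have e1 : Units.map (f : K →* K) (c n1) = c n1 := by
      have : Units.map (f : K →* K) (c n1) * (c n1)⁻¹ = 1 := by rw [← d1, b1]
      exact mul_inv_eq_one.mp this
    have e2 : Units.map (f : K →* K) (c n0) = δ n2 * c n2 := by rw [d2]; group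
    have e3 : Units.map (f : K →* K) (c n2) = δ n3 * c n3 := by rw [d3]; group
    have g0 : δ n2 * δ n3 = δ n0 := triple_rel b0 b4
    have g2 : δ n0 * δ n3 = δ n2 := triple_rel b2 (by rw [← b4]; ac_rfl)
    have g3 : δ n0 * δ n2 = δ n3 := triple_rel b3 (by rw [← b4]; ac_rfl)
    funext ⟨i, hi⟩
    have hi2 : i < 4 := hi
    interval_cases i
    · show Units.map (f : K →* K) (c n3 * z n3) = c n0 * z n0
      rw [map_mul, z3, f2, e0, z0, ← g3]
      ac_rfl
    · show Units.map (f : K →* K) (c n1 * z n1) = c n1 * z n1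
      rw [z1, mul_one, e1]
    · show Units.map (f : K →* K) (c n0 * z n0) = c n2 * z n2
      rw [map_mul, z0, f3, e2, z2, ← g0]
      ac_rfl
    · show Units.map (f : K →* K) (c n2 * z n2) = c n3 * z n3
      rw [map_mul, z2, f0, e3, z3, ← g2]
      ac_rfl
  have hc1 : (c * z) n1 ∈ fixU f := by
    have := congrFun fix n1
    exact congrArg (fun x : Kˣ => (x : K)) this
  refine ⟨(⟨(c * z) n1, hc1⟩, (c * z) n0), ?_⟩
  have e : gc f (⟨(c * z) n1, hc1⟩, (c * z) n0) = c * z := by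
    funext ⟨i, hi⟩
    have hi2 : i < 4 := hi
    interval_cases i
    · rfl
    · rfl
    · exact congrFun fix n2
    · have h2 := congrFun fix n3
      have h3 := congrFun fix n2
      show Units.map (f : K →* K) (Units.map (f : K →* K) ((c * z) n0)) = (c * z) n3
      have h4 : Units.map (f : K →* K) ((c * z) n0) = (c * z) n2 := h3
      rw [h4]
      exact h2
  rw [e, map_mul, hz, mul_one]

omit hf3 in
theorem orth1 : [n1].Pairwise (good3.OrthN K) := List.pairwise_singleton _ _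

omit hf3 in
theorem orth023 : [n0, n2, n3].Pairwise (good3.OrthN K) := by
  simp only [List.pairwise_cons, List.mem_cons, List.not_mem_nil, or_false, forall_eq_or_imp, forall_eq, false_imp_iff, implies_true,
    and_true, List.Pairwise.nil]
  exact ⟨⟨Good3.OrthN.of_chk good3 (by decide +kernel), Good3.OrthN.of_chk good3 (by decide +kernel)⟩,
    Good3.OrthN.of_chk good3 (by decide +kernel)⟩

theorem mem1 (s : ↥(fixU f)) : good3.toGood2.torusHom (gc f (s, 1)) ∈ (TT f).AA JJ := by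
  have S := sys f hf3
  have key : ∀ c : Fin chevD4.rank → Kˣ, f (c n1) = c n1 → good3.xL [n1] c ∈ (TT f).XJ (JJ 0) := by
    intro c hc
    refine (X0_iff f).mpr ⟨c n1, hc, ?_⟩
    simp [Good3.xL]
    rfl
  have h := S.torus_of_X invD 0 [n1] orth1 (c := gc f (s, 1)) (key _ s.2)
    (key _ (s⁻¹).2) (key _ (by simp))
  have e : Good3.tL [n1] (gc f (s, 1)) = gc f (s, 1) := by
    funext ⟨i, hi⟩
    have hi2 : i < 4 := hi
    interval_cases i
    · simp [Good3.tL, gc, Pi.mulSingle_apply, n1]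
    · simp [Good3.tL, gc, Pi.mulSingle_apply, n1]
    · simp [Good3.tL, gc, Pi.mulSingle_apply, n1]
    · simp [Good3.tL, gc, Pi.mulSingle_apply, n1]
  rwa [e] at h

theorem mem2 (u : Kˣ) : good3.toGood2.torusHom (gc f (1, u)) ∈ (TT f).AA JJ := by
  have S := sys f hf3
  have key : ∀ v : Kˣ, good3.xL [n0, n2, n3] (gc f (1, v)) ∈ (TT f).XJ (JJ 1) := by
    intro v
    refine (X1_iff f).mpr ⟨v, hf3 v, ?_⟩
    simp [Good3.xL, gc_n0, gc_n2, gc_n3, mul_assoc]
    rfl
  have h := S.torus_of_X invD 1 [n0, n2, n3] orth023 (c := gc f (1, u)) (key u)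
    (by
      have := key u⁻¹
      rw [← map_inv]
      simpa using this) (by
      have := key 1
      rwa [show ((1 : ↥(fixU f)), (1 : Kˣ)) = 1 from rfl, map_one] at this)
  have e : Good3.tL [n0, n2, n3] (gc f (1, u)) = gc f (1, u) := by
    funext ⟨i, hi⟩
    have hi2 : i < 4 := hi
    interval_cases i
    · simp [Good3.tL, gc, Pi.mulSingle_apply, n0, n2, n3]
    · simp [Good3.tL, gc, Pi.mulSingle_apply, n0, n2, n3]
    · simp [Good3.tL, gc, Pi.mulSingle_apply, n0, n2, n3]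
    · simp [Good3.tL, gc, Pi.mulSingle_apply, n0, n2, n3]
  rwa [e] at h

theorem H1_eq : chevD4.diagonalSubgroup K ⊓ (TT f).AA JJ = (good3.toGood2.torusHom.comp (gc f)).range := by
  apply le_antisymm
  · rintro g ⟨h1, h2⟩
    rw [← good3.toGood2.torusHom_range] at h1
    obtain ⟨c, rfl⟩ := h1
    obtain ⟨x, hx⟩ := fix_form f hf3 ((sys f hf3).A_fix h2)
    rw [hx]
    exact ⟨_, rfl⟩
  · rintro _ ⟨⟨s, u⟩, rfl⟩
    refine ⟨good3.toGood2.torusHom_mem _, ?_⟩
    have e : (s, u) = (s, (1 : Kˣ)) * (1, u) := by simp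
    rw [e]
    simp only [MonoidHom.comp_apply, map_mul]
    exact Subgroup.mul_mem _ (mem1 f hf3 s) (mem2 f hf3 u)

omit hf3 in
theorem gc_inj : Function.Injective (good3.toGood2.torusHom.comp (gc f)) := by
  rw [injective_iff_map_eq_one]
  rintro ⟨s, u⟩ h
  have h1 := (ker_iff _).mp h
  simp only [gc_n0, gc_n1, gc_n2, gc_n3] at h1
  obtain ⟨a0, a1, a2, a3⟩ := h1
  obtain ⟨b1, b0, b2, b3, b4⟩ := solve_ker a0 a1 a2 a3
  have e1 := sq_fix f b0
  rw [e1, e1] at b4
  have e2 : u = 1 := by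
    have : u ^ 2 * u = 1 := by rw [pow_two]; exact b4
    rwa [b0, one_mul] at this
  have e3 : s = 1 := Subtype.ext b1
  rw [e2, e3]
  rfl

theorem card_H1 [Finite K] : Nat.card ↥(chevD4.diagonalSubgroup K ⊓ (TT f).AA JJ) = Nat.card ↥(fixU f) * Nat.card Kˣ := by
  rw [H1_eq f hf3, ← Nat.card_congr (MonoidHom.ofInjective (gc_inj f)).toEquiv, Nat.card_prod]

end

end Cfsg.Agent.Lib.Chev.TwD4
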