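import Cfsg.Agent.Lib.Chev.Tw.D4c
import Cfsg.Agent.Lib.Chev.Tw.D4d
import Cfsg.Agent.Lib.Chev.Tw.Poly

/-!
The order of ³D₄(q).
-/

set_option autoImplicit false
set_option maxRecDepth 1000000
set_option linter.unusedSimpArgs false
set_option linter.unusedVariables false
set_option linter.unusedSectionVars false

namespace Cfsg.Agent.Lib.Chev.TwD4

open Cfsg Cfsg.Lie Matrix Cfsg.Agent.Lib.BN Cfsg.Agent.Lib.Chev.Tw TabD4

/-- The weights of the letters. -/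
def wtF : Fin 2 → ℕ := ![1, 3]

theorem poly_chk : pMul (pWt wtF (words.map (TwSys.LF 2))) (pMul (pBin 1 (-1)) (pBin 3 (-1))) =
    pMul (pBin 2 (-1)) (pMul (pBin 6 (-1)) (pAdd (pAdd (pBin 8 0) (pBin 4 0)) [1])) := by
  decide +kernel

variable {K : Type*} [Field K] [Fintype K] {q : ℕ} (hq : 1 < q) (hK : Fintype.card K = q ^ 3)
  (f : K ≃+* K) (hf : ∀ t, f t = t ^ q) (hf3 : ∀ t, f (f (f t)) = t)
include hq hK hf hf3

theorem card_H : Nat.card ↥(chevD4.diagonalSubgroup K ⊓ (TT f).AA JJ) = (q - 1) * (q ^ 3 - 1) := by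
  rw [card_H1 f hf3, card_fixU hq (by norm_num) hK f hf, Nat.card_units, Nat.card_eq_fintype_card, hK]

theorem card_G : (Nat.card ↥((TT f).AA JJ) : ℤ) = (q : ℤ) ^ 12 *
    (((q : ℤ) ^ 2 + -1) * (((q : ℤ) ^ 6 + -1) * ((q : ℤ) ^ 8 + 0 + ((q : ℤ) ^ 4 + 0) + 1))) := by
  have S := sys f hf3
  have hN : ∀ i : Fin 2, Nat.card ↥((TT f).XJ (JJ i)) = q ^ wtF i := by
    intro i
    fin_cases i
    · simpa [wtF, JJ] using card_X0 hq hK f hf hf3
    · simpa [wtF, JJ] using card_X1 hq hK f hf hf3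
  have hq1 : 1 ≤ q := hq.le
  have hq3 : 1 ≤ q ^ 3 := Nat.one_le_pow _ _ (by omega)
  have h1 := congrArg (pEval · (q : ℤ)) poly_chk
  simp only [pEval_mul, pEval_pBin, pEval_add] at h1
  rw [S.card_AA (wtab f hf3), S.card_B1 (long f hf3), card_U1 hq hK f hf hf3, card_H hq hK f hf hf3]
  rw [Nat.cast_mul, pEval_pWt wtF _ q _ hN]
  push_cast [Nat.cast_sub hq1, Nat.cast_sub hq3]
  have h2 : pEval [(1 : ℤ)] (q : ℤ) = 1 := by simp [pEval]
  rw [h2] at h1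
  rw [← h1]
  ring

end Cfsg.Agent.Lib.Chev.TwD4
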