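import Cfsg.Agent.Lib.Chev.Tw.Orth
import Cfsg.Agent.Lib.Chev.Tw.Frob
import Cfsg.Agent.Lib.Chev.Tab.D4e
import Cfsg.Agent.Lib.Chev.Tab.D4g
import Cfsg.Prelude.Def_LieTwisted

/-!
The group ³D₄(q).
-/

set_option autoImplicit false
set_option maxRecDepth 1000000
set_option linter.unusedSimpArgs false
set_option linter.unusedVariables false
set_option linter.unusedSectionVars false

namespace Cfsg.Agent.Lib.Chev.TwD4

open Cfsg Cfsg.Lie Matrix Cfsg.Agent.Lib.BN Cfsg.Agent.Lib.Chev.Tw TabD4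

variable {K : Type*} [Field K]

theorem rho_chk : chkRho fd.tbl chevD4.simple W (fun i => gR.getD i 0) (fun i => gRi.getD i 0) = true := by decide +kernel
theorem lin_chk : chkLin fd.tbl chevD4.simple W rc = true := by decide +kernel

theorem rhoT : RhoT good3 graph.ρ (fun i => gRi.getD i 0) := RhoT.of_chk (tbl_eq ▸ rho_chk)
theorem lin : Lin good3 := Lin.of_chk (tbl_eq ▸ lin_chk)

/-- The twisting automorphism. -/
noncomputable def TT (f : K ≃+* K) : TwAut good3 K := TwAut.ofGraph good3 graph _ rhoT f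

/-- The orbits. -/
def JJ : Fin 2 → List ℕ := ![[1], [0, 2, 3]]

/-- Words for the longest elements. -/
def wwN : Fin 2 → List ℕ := ![[1], [0, 2, 3]]

/-- Words for the longest elements. -/
def ww : Fin 2 → List (Fin chevD4.rank) := ![[⟨1, by decide⟩], [⟨0, by decide⟩, ⟨2, by decide⟩, ⟨3, by decide⟩]]

theorem orb_chk0 : chkOrb fd.tbl W (fun i => gR.getD i 0) (fun i => gRi.getD i 0) [1] [1] = true := by decide +kernel
theorem orb_chk1 : chkOrb fd.tbl W (fun i => gR.getD i 0) (fun i => gRi.getD i 0) [0, 2, 3] [0, 2, 3] = true := by decide +kernel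

theorem orb (f : K ≃+* K) (i : Fin 2) : OrbT good3 (TT f).ρ (TT f).ρi (JJ i) (ww i) := by
  fin_cases i
  · exact OrbT.of_chk (ρi' := fun i => gRi.getD i 0) (fun _ => rfl) (tbl_eq ▸ orb_chk0)
  · exact OrbT.of_chk (ρi' := fun i => gRi.getD i 0) (fun _ => rfl) (tbl_eq ▸ orb_chk1)

theorem rho_s1 : graph.ρ (chevD4.simple 1) = chevD4.simple 1 := by decide +kernel
theorem rho_s0 : graph.ρ (chevD4.simple 0) = chevD4.simple 2 := by decide +kernel
theorem rho_s2 : graph.ρ (chevD4.simple 2) = chevD4.simple 3 := by decide +kernel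
theorem rho_s3 : graph.ρ (chevD4.simple 3) = chevD4.simple 0 := by decide +kernel
theorem eps_s1 : graph.ε (chevD4.simple 1) = 1 := by decide +kernel
theorem eps_s0 : graph.ε (chevD4.simple 0) = 1 := by decide +kernel
theorem eps_s2 : graph.ε (chevD4.simple 2) = 1 := by decide +kernel
theorem eps_s3 : graph.ε (chevD4.simple 3) = 1 := by decide +kernel
theorem sp_chk1 : chkSp (tblOf chevD4) [1] [chevD4.simple 1] = true :=
  tbl_eq ▸ (by decide +kernel : chkSp fd.tbl [1] [chevD4.simple 1] = true)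
theorem sp_chk2 : chkSp (tblOf chevD4) [0, 2, 3] [chevD4.simple 0, chevD4.simple 2, chevD4.simple 3] = true :=
  tbl_eq ▸ (by decide +kernel : chkSp fd.tbl [0, 2, 3] [chevD4.simple 0, chevD4.simple 2, chevD4.simple 3] = true)
theorem ct02 : chevD4.commTerms (chevD4.simple 2) (chevD4.simple 0) = [] := by decide +kernel
theorem ct03 : chevD4.commTerms (chevD4.simple 3) (chevD4.simple 0) = [] := by decide +kernel
theorem ct23 : chevD4.commTerms (chevD4.simple 3) (chevD4.simple 2) = [] := by decide +kernel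

theorem h0 : 0 < chevD4.rank := by decide
theorem h1 : 1 < chevD4.rank := by decide
theorem h2 : 2 < chevD4.rank := by decide
theorem h3 : 3 < chevD4.rank := by decide

/-- The root elements of the fundamental roots. -/
noncomputable abbrev xs (i : ℕ) (hi : i < chevD4.rank) (t : K) : GL chevD4.Idx K := good3.xg (good3.simple_lt hi) t

theorem cm02 (s t : K) : xs 0 h0 s * xs 2 h2 t = xs 2 h2 t * xs 0 h0 s :=
  good3.xg_comm_nil (good3.simple_lt h2) (good3.simple_lt h0) (by decide +kernel) (by decide +kernel) ct02 t s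
theorem cm03 (s t : K) : xs 0 h0 s * xs 3 h3 t = xs 3 h3 t * xs 0 h0 s :=
  good3.xg_comm_nil (good3.simple_lt h3) (good3.simple_lt h0) (by decide +kernel) (by decide +kernel) ct03 t s
theorem cm23 (s t : K) : xs 2 h2 s * xs 3 h3 t = xs 3 h3 t * xs 2 h2 s :=
  good3.xg_comm_nil (good3.simple_lt h3) (good3.simple_lt h2) (by decide +kernel) (by decide +kernel) ct23 t s

theorem X0_iff (f : K ≃+* K) {c : GL chevD4.Idx K} :
    c ∈ (TT f).XJ [1] ↔ ∃ t, f t = t ∧ c = xs 1 h1 t :=
  (TT f).X_single lin h1 rho_s1 eps_s1 sp_chk1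

theorem X1_iff (f : K ≃+* K) {c : GL chevD4.Idx K} :
    c ∈ (TT f).XJ [0, 2, 3] ↔ ∃ t, f (f (f t)) = t ∧ c = xs 0 h0 t * xs 2 h2 (f t) * xs 3 h3 (f (f t)) :=
  (TT f).X_triple lin h0 h2 h3 (by norm_num) (by norm_num) (by norm_num) rho_s0 rho_s2 rho_s3 eps_s0 eps_s2 eps_s3 sp_chk2 cm02 cm03 cm23

theorem invD : InvD (good5.inv) := ⟨good5.inv_ρ, good5.inv_ε⟩

theorem neg_s0 : chevD4.neg (chevD4.simple 0) = d4m1 := by decide +kernel
theorem neg_s1 : chevD4.neg (chevD4.simple 1) = d4m2 := by decide +kernel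
theorem neg_s2 : chevD4.neg (chevD4.simple 2) = d4m3 := by decide +kernel
theorem neg_s3 : chevD4.neg (chevD4.simple 3) = d4m4 := by decide +kernel
theorem pos_s0 : chevD4.simple 0 = d4p1 := by decide +kernel
theorem pos_s1 : chevD4.simple 1 = d4p2 := by decide +kernel
theorem pos_s2 : chevD4.simple 2 = d4p3 := by decide +kernel
theorem pos_s3 : chevD4.simple 3 = d4p4 := by decide +kernel

section Main

variable (f : K ≃+* K) (hf3 : ∀ t, f (f (f t)) = t)
include hf3

theorem sys : TwSys (TT f) JJ ww where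
  orb := orb f
  lin := lin
  disj := by
    intro i i' hne
    fin_cases i <;> fin_cases i'
    · exact absurd rfl hne
    · exact ⟨1, by simp [JJ], by simp [JJ]⟩
    · exact ⟨0, by simp [JJ], by simp [JJ]⟩
    · exact absurd rfl hne
  cover := by
    rintro ⟨x, hx⟩
    have hx4 : x < 4 := hx
    interval_cases x
    · exact ⟨1, by simp [JJ]⟩
    · exact ⟨0, by simp [JJ]⟩
    · exact ⟨1, by simp [JJ]⟩
    · exact ⟨1, by simp [JJ]⟩
  ntX := by
    intro i
    fin_cases i
    · refine ⟨xs 1 h1 1, (X0_iff f).mpr ⟨1, map_one f, rfl⟩, fun h => ?_⟩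
      exact one_ne_zero (good3.toGood2.xg_eq_one _ h)
    · refine ⟨xs 0 h0 1 * xs 2 h2 (f 1) * xs 3 h3 (f (f 1)), (X1_iff f).mpr ⟨1, hf3 1, rfl⟩, fun h => ?_⟩
      rw [mul_assoc] at h
      refine (TT f).mul_ne_one lin h0 (J := [0]) (by simp) one_ne_zero (y := xs 2 h2 (f 1) * xs 3 h3 (f (f 1))) ?_ h
      exact Subgroup.mul_mem _ (good3.xg_mem _ ((TT f).simple_Qp lin h2 (by simp)) _)
        (good3.xg_mem _ ((TT f).simple_Qp lin h3 (by simp)) _)
  ntY := by
    intro i
    fin_cases i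
    · refine ⟨TwAut.iot good5.inv K (xs 1 h1 1), (TT f).iot_X invD ((X0_iff f).mpr ⟨1, map_one f, rfl⟩), fun h => ?_⟩
      exact one_ne_zero (good3.toGood2.xg_eq_one _ (TwAut.iot_ne h))
    · refine ⟨TwAut.iot good5.inv K (xs 0 h0 1 * xs 2 h2 (f 1) * xs 3 h3 (f (f 1))), (TT f).iot_X invD ((X1_iff f).mpr ⟨1, hf3 1, rfl⟩), fun h => ?_⟩
      have h' := TwAut.iot_ne h
      rw [mul_assoc] at h'
      refine (TT f).mul_ne_one lin h0 (J := [0]) (by simp) one_ne_zero (y := xs 2 h2 (f 1) * xs 3 h3 (f (f 1))) ?_ h'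
      exact Subgroup.mul_mem _ (good3.xg_mem _ ((TT f).simple_Qp lin h2 (by simp)) _)
        (good3.xg_mem _ ((TT f).simple_Qp lin h3 (by simp)) _)

end Main

section AA

variable {q : ℕ} (f : K ≃+* K) (hf : ∀ t, f t = t ^ q) (hf3 : ∀ t, f (f (f t)) = t)
include hf hf3

theorem iot_xs (i : ℕ) (hi : i < chevD4.rank) (t : K) :
    TwAut.iot good5.inv K (xs i hi t) = good3.xg (good3.neg_lt (good3.simple_lt hi)) (-t) :=
  TwAut.iot_x invD good3 _ t

theorem AA_eq : (TT f).AA JJ = twistedD4 K q := by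
  apply le_antisymm
  · rw [TwAut.AA, Subgroup.closure_le]
    intro x hx
    obtain ⟨i, hx⟩ := Set.mem_iUnion.mp hx
    apply Subgroup.subset_closure
    fin_cases i
    · rcases hx with hx | hx
      · obtain ⟨t, ht, rfl⟩ := (X0_iff f).mp hx
        refine ⟨[(d4p2, t)], Or.inl ⟨t, by rw [← hf, ht], d4p2, by simp, rfl⟩, ?_⟩
        rw [← pos_s1]
        exact good3.val_word1 _ _
      · obtain ⟨c, hc, rfl⟩ := ((TT f).mem_Y_iff invD).mp hx
        obtain ⟨t, ht, rfl⟩ := (X0_iff f).mp hc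
        rw [iot_xs f hf hf3]
        refine ⟨[(d4m2, -t)], Or.inl ⟨-t, by rw [← hf, map_neg, ht], d4m2, by simp, rfl⟩, ?_⟩
        rw [← neg_s1]
        exact good3.val_word1 _ _
    · rcases hx with hx | hx
      · obtain ⟨t, ht, rfl⟩ := (X1_iff f).mp hx
        refine ⟨_, Or.inr ⟨t, (d4p1, d4p3, d4p4), by simp, rfl⟩, ?_⟩
        simp only
        rw [← pos_s0, ← pos_s2, ← pos_s3, ← hf, pow_two, pow_mul, ← hf, ← hf]
        exact good3.val_word3 _ _ _ _ _ _
      · obtain ⟨c, hc, rfl⟩ := ((TT f).mem_Y_iff invD).mp hx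
        obtain ⟨t, ht, rfl⟩ := (X1_iff f).mp hc
        have e : TwAut.iot good5.inv K (xs 0 h0 t * xs 2 h2 (f t) * xs 3 h3 (f (f t))) =
            good3.xg (good3.neg_lt (good3.simple_lt h0)) (-t) * good3.xg (good3.neg_lt (good3.simple_lt h2)) (f (-t)) *
              good3.xg (good3.neg_lt (good3.simple_lt h3)) (f (f (-t))) := by
          rw [TwAut.iot_mul, TwAut.iot_mul, iot_xs f hf hf3, iot_xs f hf hf3, iot_xs f hf hf3, map_neg, map_neg]
        rw [e]
        refine ⟨_, Or.inr ⟨-t, (d4m1, d4m3, d4m4), by simp, rfl⟩, ?_⟩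
        simp only
        rw [← neg_s0, ← neg_s2, ← neg_s3, ← hf, pow_two, pow_mul, ← hf, ← hf]
        exact good3.val_word3 _ _ _ _ _ _
  · apply (Subgroup.closure_le _).mpr
    rintro g ⟨w, hw, hg⟩
    rcases hw with ⟨t, ht, r, hr, rfl⟩ | ⟨t, rs, hrs, rfl⟩
    · have ht' : f t = t := by rw [hf, ht]
      simp only [List.mem_cons, List.not_mem_nil, or_false] at hr
      rcases hr with rfl | rfl
      · have e : g = xs 1 h1 t := by
          rw [← pos_s1] at hg
          exact good3.eq_word1 _ hg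
        rw [e]
        exact (TT f).X_le_AA JJ 0 ((X0_iff f).mpr ⟨t, ht', rfl⟩)
      · have e : g = TwAut.iot good5.inv K (xs 1 h1 (-t)) := by
          rw [iot_xs f hf hf3, neg_neg]
          rw [← neg_s1] at hg
          exact good3.eq_word1 _ hg
        rw [e]
        exact (TT f).Y_le_AA JJ 0 ((TT f).iot_X invD ((X0_iff f).mpr ⟨-t, by rw [map_neg, ht'], rfl⟩))
    · simp only [List.mem_cons, List.not_mem_nil, or_false] at hrs
      rcases hrs with rfl | rfl
      · have e : g = xs 0 h0 t * xs 2 h2 (f t) * xs 3 h3 (f (f t)) := by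
          simp only at hg
          rw [← pos_s0, ← pos_s2, ← pos_s3, ← hf, pow_two, pow_mul, ← hf, ← hf] at hg
          exact good3.eq_word3 _ _ _ hg
        rw [e]
        exact (TT f).X_le_AA JJ 1 ((X1_iff f).mpr ⟨t, hf3 t, rfl⟩)
      · have e : g = TwAut.iot good5.inv K (xs 0 h0 (-t) * xs 2 h2 (f (-t)) * xs 3 h3 (f (f (-t)))) := by
          rw [TwAut.iot_mul, TwAut.iot_mul, iot_xs f hf hf3, iot_xs f hf hf3, iot_xs f hf hf3, map_neg, map_neg, neg_neg, neg_neg, neg_neg]
          simp only at hg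
          rw [← neg_s0, ← neg_s2, ← neg_s3, ← hf, pow_two, pow_mul, ← hf, ← hf] at hg
          exact good3.eq_word3 _ _ _ hg
        rw [e]
        exact (TT f).Y_le_AA JJ 1 ((TT f).iot_X invD ((X1_iff f).mpr ⟨-t, hf3 _, rfl⟩))

end AA

end Cfsg.Agent.Lib.Chev.TwD4
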