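import Cfsg.Agent.Lib.Chev.Tw.D4
import Cfsg.Agent.Lib.Chev.Tw.Core
import Cfsg.Agent.Lib.Chev.Tw.Frob2

/-!
The group ³D₄(q): the unipotent subgroup and the core of the Borel subgroup.
-/

set_option autoImplicit false
set_option maxRecDepth 1000000
set_option linter.unusedSimpArgs false
set_option linter.unusedVariables false
set_option linter.unusedSectionVars false

namespace Cfsg.Agent.Lib.Chev.TwD4

open Cfsg Cfsg.Lie Matrix Cfsg.Agent.Lib.BN Cfsg.Agent.Lib.Chev.Tw TabD4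

variable {K : Type*} [Field K]

theorem JJ_eq (i : Fin 2) : JJ i = ([[1], [0, 2, 3]] : List (List ℕ)).getD i [] := by
  fin_cases i <;> rfl

theorem ww_eq (i : Fin 2) : (ww i).map Fin.val = ([[1], [0, 2, 3]] : List (List ℕ)).getD i [] := by
  fin_cases i <;> rfl

theorem long_chk : chkLong fd.tbl W (fun i => ([[1], [0, 2, 3]] : List (List ℕ)).getD i [])
    (fun i => ([[1], [0, 2, 3]] : List (List ℕ)).getD i []) [0, 1, 0, 1, 0, 1] = true := by decide +kernel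

section

variable (f : K ≃+* K) (hf3 : ∀ t, f (f (f t)) = t)
include hf3

theorem long : TwSys.LongW good3 JJ ww [0, 1, 0, 1, 0, 1] :=
  TwSys.long_of_chk JJ_eq ww_eq (fun i => TwSys.pp_inv (sys f hf3) i) _ (tbl_eq ▸ long_chk)

theorem nz (a : Fin chevD4.rank) : ∃ i, ∃ c ∈ (TT f).XJ (JJ i), ∃ d : K, d ≠ 0 ∧ ∃ y ∈ rG chevD4 K (Qp chevD4 [a.val]),
    c = good3.xg (good3.simple_lt a.isLt) d * y := by
  obtain ⟨a, ha⟩ := a
  have ha2 : a < 4 := ha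
  have hc : xs 0 h0 (1 : K) * xs 2 h2 (f 1) * xs 3 h3 (f (f 1)) ∈ (TT f).XJ (JJ 1) := (X1_iff f).mpr ⟨1, hf3 1, rfl⟩
  have qq := fun (b c : ℕ) (hb : b < chevD4.rank) (t : K) (h : b ≠ c) =>
    good3.xg_mem (F := K) (good3.simple_lt hb) ((TT f).simple_Qp lin hb (J := [c]) (by simpa using h)) t
  interval_cases a
  · refine ⟨1, _, hc, 1, one_ne_zero, xs 2 h2 (f 1) * xs 3 h3 (f (f 1)), ?_, ?_⟩
    · exact Subgroup.mul_mem _ (qq 2 0 h2 _ (by norm_num)) (qq 3 0 h3 _ (by norm_num))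
    · rw [mul_assoc]
  · refine ⟨0, xs 1 h1 1, (X0_iff f).mpr ⟨1, map_one f, rfl⟩, 1, one_ne_zero, 1, Subgroup.one_mem _, ?_⟩
    rw [mul_one]
  · refine ⟨1, _, hc, f 1, by simp, xs 0 h0 1 * xs 3 h3 (f (f 1)), ?_, ?_⟩
    · exact Subgroup.mul_mem _ (qq 0 2 h0 _ (by norm_num)) (qq 3 2 h3 _ (by norm_num))
    · show _ = xs 2 h2 (f 1) * _
      rw [cm02, mul_assoc]
  · refine ⟨1, _, hc, f (f 1), by simp, xs 0 h0 1 * xs 2 h2 (f 1), ?_, ?_⟩
    · exact Subgroup.mul_mem _ (qq 0 3 h0 _ (by norm_num)) (qq 2 3 h2 _ (by norm_num))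
    · show _ = xs 3 h3 (f (f 1)) * _
      rw [mul_assoc, cm23, ← mul_assoc, cm03, mul_assoc]

theorem core_bot : ((chevD4.borelSubgroup K ⊓ (TT f).AA JJ).subgroupOf ((TT f).AA JJ)).normalCore = ⊥ :=
  (sys f hf3).core_eq_bot (long f hf3) (nz f hf3)

end

section Card

variable [Fintype K] {q : ℕ} (hq : 1 < q) (hK : Fintype.card K = q ^ 3)
  (f : K ≃+* K) (hf : ∀ t, f t = t ^ q) (hf3 : ∀ t, f (f (f t)) = t)
include hq hK hf hf3

theorem card_X0 : Nat.card ↥((TT f).XJ [1]) = q := by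
  have e : {t : K // t ^ q = t} ≃ ↥((TT f).XJ [1]) := by
    refine Equiv.ofBijective (fun t => ⟨xs 1 h1 t.1, (X0_iff f).mpr ⟨t.1, by rw [hf]; exact t.2, rfl⟩⟩) ⟨?_, ?_⟩
    · intro t t' h
      exact Subtype.ext (good3.xg_inj (good3.simple_lt h1) (congrArg Subtype.val h))
    · rintro ⟨c, hc⟩
      obtain ⟨t, ht, rfl⟩ := (X0_iff f).mp hc
      exact ⟨⟨t, by rw [← hf]; exact ht⟩, rfl⟩
  rw [← Nat.card_congr e, card_fix_frob hq (by norm_num) hK]

theorem card_X1 : Nat.card ↥((TT f).XJ [0, 2, 3]) = q ^ 3 := by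
  have e : K ≃ ↥((TT f).XJ [0, 2, 3]) := by
    refine Equiv.ofBijective (fun t => ⟨xs 0 h0 t * xs 2 h2 (f t) * xs 3 h3 (f (f t)), (X1_iff f).mpr ⟨t, hf3 t, rfl⟩⟩) ⟨?_, ?_⟩
    · intro t t' h
      have h1 : xs 0 h0 t * xs 2 h2 (f t) * xs 3 h3 (f (f t)) = xs 0 h0 t' * xs 2 h2 (f t') * xs 3 h3 (f (f t')) :=
        congrArg Subtype.val h
      rw [mul_assoc, mul_assoc] at h1
      have qq := fun (b : ℕ) (hb : b < chevD4.rank) (t : K) (hh : b ≠ 0) =>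
        good3.xg_mem (F := K) (good3.simple_lt hb) ((TT f).simple_Qp lin hb (J := [0]) (by simpa using hh)) t
      exact (TT f).coord_inj lin h0 (J := [0]) (by simp)
        (Subgroup.mul_mem _ (qq 2 h2 _ (by norm_num)) (qq 3 h3 _ (by norm_num)))
        (Subgroup.mul_mem _ (qq 2 h2 _ (by norm_num)) (qq 3 h3 _ (by norm_num))) h1
    · rintro ⟨c, hc⟩
      obtain ⟨t, ht, rfl⟩ := (X1_iff f).mp hc
      exact ⟨t, rfl⟩
  rw [← Nat.card_congr e, Nat.card_eq_fintype_card, hK]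

theorem card_U1 : Nat.card ↥(chevD4.posUnipotent K ⊓ (TT f).AA JJ) = q ^ 12 := by
  rw [(sys f hf3).card_U1 (long f hf3)]
  have e0 : Nat.card ↥((TT f).XJ (JJ 0)) = q := card_X0 hq hK f hf hf3
  have e1 : Nat.card ↥((TT f).XJ (JJ 1)) = q ^ 3 := card_X1 hq hK f hf hf3
  simp only [List.map_cons, List.map_nil, List.prod_cons, List.prod_nil, e0, e1]
  ring

end Card

end Cfsg.Agent.Lib.Chev.TwD4
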