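import Cfsg.Agent.Lib.Chev.Tab.D4e
import Cfsg.Agent.Lib.Chev.Tw.WChk

/-! The Weyl group of the twisted group of type D4. -/

set_option autoImplicit false
set_option maxRecDepth 1000000

namespace Cfsg.Agent.Lib.Chev.TwD4

/-- The elements of the Weyl group, as words in the orbits. -/
def words : List (List ℕ) :=
  [[], [0], [1], [1, 0], [0, 1], [0, 1, 0], [1, 0, 1], [1, 0, 1, 0], [0, 1, 0, 1], [0, 1, 0, 1, 0], [1, 0, 1, 0, 1], [1, 0, 1, 0, 1, 0]]

/-- The images of the fundamental roots. -/
def imgB : ℕ := 0x1628485101c7041834092040cb061e40013040cb862a50011101cb842a500911628b051e404931834712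

/-- The images of the fundamental roots. -/
def img (a j : ℕ) : ℕ := cell imgB (7 * (a * 4 + j)) 127

/-- The action of the generators. -/
def nbrB : ℕ := 0x120280400b01601c0500600a0240200800e00c030020020140000400600001001

/-- The action of the generators. -/
def nbr (a i : ℕ) : ℕ := cell nbrB (11 * (a * 2 + i)) 2047

end Cfsg.Agent.Lib.Chev.TwD4
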