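import Cfsg.Agent.Lib.Chev.Tw.D4b
import Cfsg.Agent.Lib.Chev.Tw.D4w
import Cfsg.Agent.Lib.Chev.Tab.G2d

/-!
The Weyl group of ³D₄(q).
-/

set_option autoImplicit false
set_option maxRecDepth 1000000
set_option linter.unusedSimpArgs false
set_option linter.unusedVariables false
set_option linter.unusedSectionVars false

namespace Cfsg.Agent.Lib.Chev.TwD4

open Cfsg Cfsg.Lie Matrix Cfsg.Agent.Lib.BN Cfsg.Agent.Lib.Chev.Tw TabD4

variable {K : Type*} [Field K]

/-- The words for the generators. -/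
def wfL : List (List ℕ) := [[1], [0, 2, 3]]

/-- The positive roots of the orbits. -/
def spfL : List (List ℕ) := [[14], [18, 13, 12]]

theorem wt_chk : chkWT fd.tbl W chevD4.simple 2 (fun i => wfL.getD i []) (fun i => spfL.getD i []) words img nbr = true := by
  decide +kernel

theorem sp_chk (i : Fin 2) : chkSp (tblOf chevD4) (JJ i) (spfL.getD i []) = true := by
  fin_cases i
  · exact tbl_eq ▸ (by decide +kernel : chkSp fd.tbl [1] [14] = true)
  · exact tbl_eq ▸ (by decide +kernel : chkSp fd.tbl [0, 2, 3] [18, 13, 12] = true)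

theorem wtab (f : K ≃+* K) (hf3 : ∀ t, f (f (f t)) = t) : TwSys.WTab good3 JJ ww (words.map (TwSys.LF 2)) :=
  TwSys.of_chk ww_eq sp_chk (fun i => TwSys.pp_inv (sys f hf3) i) words img nbr (tbl_eq ▸ wt_chk)

/-- The Coxeter matrix of type G₂. -/
def mlG (i j : ℕ) : ℕ := (([[1, 6], [6, 1]] : List (List ℕ)).getD i []).getD j 1

theorem lift_chk : chkLift fd.tbl.n W (fun i => wfL.getD i []) 2 mlG = true := by decide +kernel

theorem card_G2 : Nat.card CoxeterMatrix.G₂.Group = 12 := by
  have h := TabG2.good4.weyl_card CoxeterMatrix.G₂ (by set_option backward.isDefEq.respectTransparency false in decide +kernel)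
  have h2 : pEval (pChain chevG2.nroots TabG2.cdata) ((1 : ℕ) : ℤ) = 12 := by decide +kernel
  exact_mod_cast h.trans h2

theorem N_hom [Fintype K] (f : K ≃+* K) (hf3 : ∀ t, f (f (f t)) = t) :
    ∃ φ : ↥(chevD4.monomialSubgroup K ⊓ (TT f).AA JJ) →* CoxeterMatrix.G₂.Group, Function.Surjective φ ∧
      φ.ker = (chevD4.diagonalSubgroup K ⊓ (TT f).AA JJ).subgroupOf (chevD4.monomialSubgroup K ⊓ (TT f).AA JJ) := by
  refine (sys f hf3).exists_hom_cox (wtab f hf3) CoxeterMatrix.G₂ id (fun x => ⟨x, rfl⟩) ?_ ?_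
  · refine good3.liftable_of_chk CoxeterMatrix.G₂ id (fun i => wfL.getD i []) ?_ mlG
      (by set_option backward.isDefEq.respectTransparency false in decide +kernel) (tbl_eq ▸ lift_chk)
    intro i
    fin_cases i <;> rfl
  · rw [card_G2, List.length_map]
    rfl

end Cfsg.Agent.Lib.Chev.TwD4
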