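import Cfsg.Agent.Lib.Chev.Tw.D4d
import Cfsg.Agent.Lib.Chev.Tw.Pf

/-!
³D₄(q) is perfect and simple.
-/

set_option autoImplicit false
set_option maxRecDepth 1000000
set_option linter.unusedSimpArgs false
set_option linter.unusedVariables false
set_option linter.unusedSectionVars false

namespace Cfsg.Agent.Lib.Chev.TwD4

open Cfsg Cfsg.Lie Matrix Cfsg.Agent.Lib.BN Cfsg.Agent.Lib.Chev.Tw TabD4

variable {K : Type*} [Field K]

theorem act_key (z : Fin chevD4.rank → Kˣ) (j : Fin chevD4.rank) :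
    act (cartanFin chevD4) z j = z n0 ^ cartanFin chevD4 n0 j * z n1 ^ cartanFin chevD4 n1 j * z n2 ^ cartanFin chevD4 n2 j *
      z n3 ^ cartanFin chevD4 n3 j := by
  rw [act_apply]
  exact Fin.prod_univ_four (fun i : Fin 4 => z i ^ cartanFin chevD4 i j)

theorem act_0 (z : Fin chevD4.rank → Kˣ) : act (cartanFin chevD4) z n0 = z n0 ^ 2 * (z n1)⁻¹ := by
  rw [act_key]
  simp only [ce00, ce10, ce20, ce30, zpow_zero, one_mul, mul_one, _root_.zpow_neg, zpow_one, zpow_ofNat, pow_zero, pow_one]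
theorem act_2 (z : Fin chevD4.rank → Kˣ) : act (cartanFin chevD4) z n2 = (z n1)⁻¹ * z n2 ^ 2 := by
  rw [act_key]
  simp only [ce02, ce12, ce22, ce32, zpow_zero, one_mul, mul_one, _root_.zpow_neg, zpow_one, zpow_ofNat, pow_zero, pow_one]
theorem act_3 (z : Fin chevD4.rank → Kˣ) : act (cartanFin chevD4) z n3 = (z n1)⁻¹ * z n3 ^ 2 := by
  rw [act_key]
  simp only [ce03, ce13, ce23, ce33, zpow_zero, one_mul, mul_one, _root_.zpow_neg, zpow_one, zpow_ofNat, pow_zero, pow_one]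

/-- The action of the torus on a fundamental root element. -/
theorem tor_conj (c : Fin chevD4.rank → Kˣ) (j : ℕ) (hj : j < chevD4.rank) (t : K) :
    good3.toGood2.torusHom c * xs j hj t * (good3.toGood2.torusHom c)⁻¹ =
      xs j hj (((act (cartanFin chevD4) c ⟨j, hj⟩ : Kˣ) : K) * t) := by
  have := good3.toGood2.torus_conj_x c (good3.simple_lt hj) t
  refine this.trans ?_
  congr 2

theorem h22 : 22 < chevD4.nroots := by decide
theorem h23 : 23 < chevD4.nroots := by decide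

section

variable (f : K ≃+* K) (hf3 : ∀ t, f (f (f t)) = t)
include hf3

theorem nw0 : good3.toGood2.nw (ww 0) ∈ (TT f).AA JJ := by
  have key : good3.xL [n1] (1 : Fin chevD4.rank → Kˣ) ∈ (TT f).XJ (JJ 0) := by
    refine (X0_iff f).mpr ⟨1, map_one f, ?_⟩
    simp [Good3.xL]
    rfl
  have := (sys f hf3).nL_mem invD 0 [n1] orth1 (c := 1) key (by rwa [inv_one])
  rwa [good3.nL_one_eq] at this

theorem nw1 : good3.toGood2.nw (ww 1) ∈ (TT f).AA JJ := by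
  have key : good3.xL [n0, n2, n3] (1 : Fin chevD4.rank → Kˣ) ∈ (TT f).XJ (JJ 1) := by
    refine (X1_iff f).mpr ⟨1, by simp, ?_⟩
    simp [Good3.xL, mul_assoc]
    rfl
  have := (sys f hf3).nL_mem invD 1 [n0, n2, n3] orth023 (c := 1) key (by rwa [inv_one])
  rwa [good3.nL_one_eq] at this

omit hf3 in
theorem fq_neg : ∀ t ∈ {t : K | f t = t}, -t ∈ {t : K | f t = t} := by
  intro t ht
  show f (-t) = -t
  rw [map_neg, ht]

theorem A1 (t : K) (ht : t ∈ {t : K | f t = t}) : xs 1 h1 t ∈ (TT f).AA JJ :=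
  (TT f).X_le_AA JJ 0 ((X0_iff f).mpr ⟨t, ht, rfl⟩)

theorem A22 (t : K) (ht : t ∈ {t : K | f t = t}) : good3.xg h22 t ∈ (TT f).AA JJ := by
  have := (TT f).AA_transport JJ (nw1 f hf3) (r := ⟨chevD4.simple 1, good3.simple_lt h1⟩) (fq_neg f) (A1 f hf3) t ht
  have e : ((good3.toGood2.pp (ww 1) ⟨chevD4.simple 1, good3.simple_lt h1⟩ : Fin chevD4.nroots) : ℕ) = 22 := by
    rw [good3.pp_val]
    decide +kernel
  rwa [good3.xg_congr e _ h22 rfl] at this

theorem D23 (v : K) (hv : v ∈ {t : K | f t = t}) : good3.xg h23 v ∈ (TT f).DD JJ :=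
  (TT f).DD_comm JJ (good3.simple_lt h1) h22 (by decide +kernel) (by decide +kernel) (c := 1)
    (Or.inl rfl) (by decide +kernel) h23 (fq_neg f) (A1 f hf3 1 (map_one f)) (A22 f hf3) v hv

theorem D22 (v : K) (hv : v ∈ {t : K | f t = t}) : good3.xg h22 v ∈ (TT f).DD JJ := by
  have := (TT f).DD_transport JJ (nw0 f hf3) (r := ⟨23, h23⟩) (fq_neg f) (D23 f hf3) v hv
  have e : ((good3.toGood2.pp (ww 0) ⟨23, h23⟩ : Fin chevD4.nroots) : ℕ) = 22 := by
    rw [good3.pp_val]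
    decide +kernel
  rwa [good3.xg_congr e _ h22 rfl] at this

theorem D1 (v : K) (hv : f v = v) : xs 1 h1 v ∈ (TT f).DD JJ := by
  have := (TT f).DD_transport JJ (nw1 f hf3) (r := ⟨22, h22⟩) (fq_neg f) (D22 f hf3) v hv
  have e : ((good3.toGood2.pp (ww 1) ⟨22, h22⟩ : Fin chevD4.nroots) : ℕ) = chevD4.simple 1 := by
    rw [good3.pp_val]
    decide +kernel
  rwa [good3.xg_congr e _ (good3.simple_lt h1) rfl] at this

theorem D023 {u : Kˣ} (hu : (u : K) ^ 2 ≠ 1) (t : K) : xs 0 h0 t * xs 2 h2 (f t) * xs 3 h3 (f (f t)) ∈ (TT f).DD JJ := by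
  set c := gc f (1, u) with hc
  have a0 : c n0 = u := rfl
  have a1 : c n1 = 1 := rfl
  have a2 : c n2 = Units.map (f : K →* K) u := rfl
  have a3 : c n3 = Units.map (f : K →* K) (Units.map (f : K →* K) u) := rfl
  have b0 : act (cartanFin chevD4) c ⟨0, h0⟩ = u ^ 2 := by
    show act (cartanFin chevD4) c n0 = _
    rw [act_0, a0, a1]
    simp
  have b2 : act (cartanFin chevD4) c ⟨2, h2⟩ = Units.map (f : K →* K) (u ^ 2) := by
    show act (cartanFin chevD4) c n2 = _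
    rw [act_2, a1, a2]
    simp
  have b3 : act (cartanFin chevD4) c ⟨3, h3⟩ = Units.map (f : K →* K) (Units.map (f : K →* K) (u ^ 2)) := by
    show act (cartanFin chevD4) c n3 = _
    rw [act_3, a1, a3]
    simp
  have hA : good3.toGood2.torusHom c ∈ (TT f).AA JJ := by
    have : u = (1 : ↥(fixU f)) • u := by simp
    have h := mem2 f hf3 u
    exact h
  refine (TT f).scale_mem' JJ (ξ := fun t => xs 0 h0 t * xs 2 h2 (f t) * xs 3 h3 (f (f t))) (fun t => ?_) (fun a b => ?_)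
    hA (χ := ((u ^ 2 : Kˣ) : K)) (by simpa using hu) (fun t => ?_) t
  · exact (TT f).X_le_AA JJ 1 ((X1_iff f).mpr ⟨t, hf3 t, rfl⟩)
  · show xs 0 h0 a * xs 2 h2 (f a) * xs 3 h3 (f (f a)) * (xs 0 h0 b * xs 2 h2 (f b) * xs 3 h3 (f (f b))) =
      xs 0 h0 (a + b) * xs 2 h2 (f (a + b)) * xs 3 h3 (f (f (a + b)))
    rw [map_add, map_add]
    have e1 : xs 0 h0 (a + b) = xs 0 h0 a * xs 0 h0 b := (good3.xg_mul _ a b).symm
    have e2 : xs 2 h2 (f a + f b) = xs 2 h2 (f a) * xs 2 h2 (f b) := (good3.xg_mul _ _ _).symm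
    have e3 : xs 3 h3 (f (f a) + f (f b)) = xs 3 h3 (f (f a)) * xs 3 h3 (f (f b)) := (good3.xg_mul _ _ _).symm
    rw [e1, e2, e3]
    have c1 := cm02 b (f a)
    have c2 := cm03 b (f (f a))
    have c3 := cm23 (f b) (f (f a))
    calc xs 0 h0 a * xs 2 h2 (f a) * xs 3 h3 (f (f a)) * (xs 0 h0 b * xs 2 h2 (f b) * xs 3 h3 (f (f b)))
        = xs 0 h0 a * xs 2 h2 (f a) * (xs 3 h3 (f (f a)) * xs 0 h0 b) * xs 2 h2 (f b) * xs 3 h3 (f (f b)) := by group
      _ = xs 0 h0 a * (xs 2 h2 (f a) * xs 0 h0 b) * xs 3 h3 (f (f a)) * xs 2 h2 (f b) * xs 3 h3 (f (f b)) := by rw [← c2]; group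
      _ = xs 0 h0 a * xs 0 h0 b * xs 2 h2 (f a) * (xs 3 h3 (f (f a)) * xs 2 h2 (f b)) * xs 3 h3 (f (f b)) := by rw [← c1]; group
      _ = _ := by rw [← c3]; group
  · show good3.toGood2.torusHom c * (xs 0 h0 t * xs 2 h2 (f t) * xs 3 h3 (f (f t))) * (good3.toGood2.torusHom c)⁻¹ =
      xs 0 h0 (((u ^ 2 : Kˣ) : K) * t) * xs 2 h2 (f (((u ^ 2 : Kˣ) : K) * t)) * xs 3 h3 (f (f (((u ^ 2 : Kˣ) : K) * t)))
    have e1 := tor_conj c 0 h0 t
    have e2 := tor_conj c 2 h2 (f t)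
    have e3 := tor_conj c 3 h3 (f (f t))
    rw [b0] at e1
    rw [b2] at e2
    rw [b3] at e3
    have g1 : ((Units.map (f : K →* K) (u ^ 2) : Kˣ) : K) = f ((u ^ 2 : Kˣ) : K) := rfl
    have g2 : ((Units.map (f : K →* K) (Units.map (f : K →* K) (u ^ 2)) : Kˣ) : K) = f (f ((u ^ 2 : Kˣ) : K)) := rfl
    rw [g1] at e2
    rw [g2] at e3
    rw [map_mul, map_mul, ← e1, ← e2, ← e3]
    group

theorem X_le_DD {u : Kˣ} (hu : (u : K) ^ 2 ≠ 1) (i : Fin 2) : (TT f).XJ (JJ i) ≤ (TT f).DD JJ := by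
  intro x hx
  fin_cases i
  · obtain ⟨t, ht, rfl⟩ := (X0_iff f).mp hx
    exact D1 f hf3 t ht
  · obtain ⟨t, ht, rfl⟩ := (X1_iff f).mp hx
    exact D023 f hf3 hu t

theorem perfect {u : Kˣ} (hu : (u : K) ^ 2 ≠ 1) : commutator ↥((TT f).AA JJ) = ⊤ :=
  (sys f hf3).perfect_of_X (X_le_DD f hf3 hu)

end

theorem adj01 : good3.toGood2.pp (ww 0) * good3.toGood2.pp (ww 1) * good3.toGood2.pp (ww 0) * good3.toGood2.pp (ww 1) ≠ 1 :=
  good3.adj_of_chk _ _ (r := 14) (by decide) (by decide +kernel)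
theorem adj10 : good3.toGood2.pp (ww 1) * good3.toGood2.pp (ww 0) * good3.toGood2.pp (ww 1) * good3.toGood2.pp (ww 0) ≠ 1 :=
  good3.adj_of_chk _ _ (r := 14) (by decide) (by decide +kernel)

theorem simple_AA (f : K ≃+* K) (hf3 : ∀ t, f (f (f t)) = t) {u : Kˣ} (hu : (u : K) ^ 2 ≠ 1) :
    IsSimpleGroup ↥((TT f).AA JJ) ∧ ¬ IsMulCommutative ↥((TT f).AA JJ) := by
  obtain ⟨c, hc, hne⟩ := (sys f hf3).ntX 1
  exact (sys f hf3).simple_of_perfect' (perfect f hf3 hu) (core_bot f hf3)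
    (conn_pair 0 1 (by decide) _ adj01 adj10) hc hne

end Cfsg.Agent.Lib.Chev.TwD4
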