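import Cfsg.Agent.Lib.Chev.Tw.E6e
import Cfsg.Agent.Lib.Chev.Tw.Pf

/-!
²E₆(q) is perfect and simple.
-/

set_option autoImplicit false
set_option maxRecDepth 1000000
set_option linter.unusedSimpArgs false
set_option linter.unusedVariables false
set_option linter.unusedSectionVars false

namespace Cfsg.Agent.Lib.Chev.TwE6

open Cfsg Cfsg.Lie Matrix Cfsg.Agent.Lib.BN Cfsg.Agent.Lib.Chev.Tw TabE6

variable {K : Type*} [Field K]

theorem act_key (z : Fin chevE6.rank → Kˣ) (j : Fin chevE6.rank) :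
    act (cartanFin chevE6) z j = z n0 ^ cartanFin chevE6 n0 j * z n1 ^ cartanFin chevE6 n1 j * z n2 ^ cartanFin chevE6 n2 j *
      z n3 ^ cartanFin chevE6 n3 j * z n4 ^ cartanFin chevE6 n4 j * z n5 ^ cartanFin chevE6 n5 j := by
  rw [act_apply]
  exact Fin.prod_univ_six (fun i : Fin 6 => z i ^ cartanFin chevE6 i j)

theorem act_0 (z : Fin chevE6.rank → Kˣ) : act (cartanFin chevE6) z n0 = z n0 ^ 2 * (z n2)⁻¹ := by
  rw [act_key]
  simp only [ce00, ce10, ce20, ce30, ce40, ce50, zpow_zero, one_mul, mul_one, _root_.zpow_neg, zpow_one, zpow_ofNat, pow_zero, pow_one]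
theorem act_5 (z : Fin chevE6.rank → Kˣ) : act (cartanFin chevE6) z n5 = (z n4)⁻¹ * z n5 ^ 2 := by
  rw [act_key]
  simp only [ce05, ce15, ce25, ce35, ce45, ce55, zpow_zero, one_mul, mul_one, _root_.zpow_neg, zpow_one, zpow_ofNat, pow_zero, pow_one]
theorem act_2 (z : Fin chevE6.rank → Kˣ) : act (cartanFin chevE6) z n2 = (z n0)⁻¹ * z n2 ^ 2 * (z n3)⁻¹ := by
  rw [act_key]
  simp only [ce02, ce12, ce22, ce32, ce42, ce52, zpow_zero, one_mul, mul_one, _root_.zpow_neg, zpow_one, zpow_ofNat, pow_zero, pow_one]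
theorem act_4 (z : Fin chevE6.rank → Kˣ) : act (cartanFin chevE6) z n4 = (z n3)⁻¹ * z n4 ^ 2 * (z n5)⁻¹ := by
  rw [act_key]
  simp only [ce04, ce14, ce24, ce34, ce44, ce54, zpow_zero, one_mul, mul_one, _root_.zpow_neg, zpow_one, zpow_ofNat, pow_zero, pow_one]

/-- The action of the torus on a fundamental root element. -/
theorem tor_conj (c : Fin chevE6.rank → Kˣ) (j : ℕ) (hj : j < chevE6.rank) (t : K) :
    good3.toGood2.torusHom c * xs j hj t * (good3.toGood2.torusHom c)⁻¹ =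
      xs j hj (((act (cartanFin chevE6) c ⟨j, hj⟩ : Kˣ) : K) * t) := by
  have := good3.toGood2.torus_conj_x c (good3.simple_lt hj) t
  refine this.trans ?_
  congr 2

theorem h47 : 47 < chevE6.nroots := by decide

section

variable (f : K ≃+* K) (hf2 : ∀ t, f (f t) = t)
include hf2

theorem tor_mem {c : Fin chevE6.rank → Kˣ} (hc : c ∈ Tf f) : good3.toGood2.torusHom c ∈ (TT f).AA JJ :=
  ((tor_data f hf2).le ⟨c, hc, rfl⟩).2

theorem nw_mem (i : Fin 4) : good3.toGood2.nw (ww i) ∈ (TT f).AA JJ := by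
  have := (tor_data f hf2).m_A i
  rwa [good3.nL_one_eq] at this

omit hf2 in
theorem fq_neg : ∀ t ∈ {t : K | f t = t}, -t ∈ {t : K | f t = t} := by
  intro t ht
  show f (-t) = -t
  rw [map_neg, ht]

theorem A1 (t : K) (ht : t ∈ {t : K | f t = t}) : xs 1 h1 t ∈ (TT f).AA JJ :=
  (TT f).X_le_AA JJ 0 ((X1_iff f).mpr ⟨t, ht, rfl⟩)
theorem A3 (t : K) (ht : t ∈ {t : K | f t = t}) : xs 3 h3 t ∈ (TT f).AA JJ :=
  (TT f).X_le_AA JJ 1 ((X3_iff f).mpr ⟨t, ht, rfl⟩)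

theorem D47 (v : K) (hv : v ∈ {t : K | f t = t}) : good3.xg h47 v ∈ (TT f).DD JJ :=
  (TT f).DD_comm JJ (good3.simple_lt h1) (good3.simple_lt h3) (by decide +kernel) (by decide +kernel) (c := -1)
    (Or.inr rfl) (by decide +kernel) h47 (fq_neg f) (A1 f hf2 1 (map_one f)) (A3 f hf2) v hv

theorem D3 (v : K) (hv : f v = v) : xs 3 h3 v ∈ (TT f).DD JJ := by
  have := (TT f).DD_transport JJ (nw_mem f hf2 0) (r := ⟨47, h47⟩) (fq_neg f) (D47 f hf2) v hv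
  have e : ((good3.toGood2.pp (ww 0) ⟨47, h47⟩ : Fin chevE6.nroots) : ℕ) = chevE6.simple 3 := by
    rw [good3.pp_val]
    decide +kernel
  rwa [good3.xg_congr e _ (good3.simple_lt h3) rfl] at this

theorem D1 (v : K) (hv : f v = v) : xs 1 h1 v ∈ (TT f).DD JJ := by
  have := (TT f).DD_transport JJ (nw_mem f hf2 1) (r := ⟨47, h47⟩) (fq_neg f) (D47 f hf2) v hv
  have e : ((good3.toGood2.pp (ww 1) ⟨47, h47⟩ : Fin chevE6.nroots) : ℕ) = chevE6.simple 1 := by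
    rw [good3.pp_val]
    decide +kernel
  rwa [good3.xg_congr e _ (good3.simple_lt h1) rfl] at this

/-- The parameters of the torus in the short directions. -/
theorem D05 {χ : Kˣ} (hχ : χ ≠ 1) (t : K) : xs 0 h0 t * xs 5 h5 (f t) ∈ (TT f).DD JJ := by
  set c := gc f (1, 1, 1, χ⁻¹) with hc
  have a0 : c n0 = 1 := rfl
  have a2 : c n2 = χ⁻¹ := rfl
  have a4 : c n4 = Units.map (f : K →* K) χ⁻¹ := rfl
  have a5 : c n5 = Units.map (f : K →* K) 1 := rfl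
  have b0 : act (cartanFin chevE6) c n0 = χ := by
    rw [act_0, a0, a2]
    simp
  have b5 : act (cartanFin chevE6) c n5 = Units.map (f : K →* K) χ := by
    rw [act_5, a4, a5]
    simp
  have hχ' : (χ : K) ≠ 1 := fun h => hχ (Units.ext h)
  refine (TT f).scale_mem' JJ (ξ := fun t => xs 0 h0 t * xs 5 h5 (f t)) (fun t => ?_) (fun a b => ?_)
    (tor_mem f hf2 (gc_mem f hf2 (1, 1, 1, χ⁻¹))) hχ' (fun t => ?_) t
  · exact (TT f).X_le_AA JJ 2 ((X05_iff f).mpr ⟨t, hf2 t, rfl⟩)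
  · show xs 0 h0 a * xs 5 h5 (f a) * (xs 0 h0 b * xs 5 h5 (f b)) = xs 0 h0 (a + b) * xs 5 h5 (f (a + b))
    rw [map_add]
    have e1 : xs 0 h0 (a + b) = xs 0 h0 a * xs 0 h0 b := (good3.xg_mul _ a b).symm
    have e2 : xs 5 h5 (f a + f b) = xs 5 h5 (f a) * xs 5 h5 (f b) := (good3.xg_mul _ _ _).symm
    rw [e1, e2]
    have e3 := cm05 b (f a)
    calc xs 0 h0 a * xs 5 h5 (f a) * (xs 0 h0 b * xs 5 h5 (f b)) = xs 0 h0 a * (xs 5 h5 (f a) * xs 0 h0 b) * xs 5 h5 (f b) := by group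
      _ = _ := by rw [← e3]; group
  · show good3.toGood2.torusHom c * (xs 0 h0 t * xs 5 h5 (f t)) * (good3.toGood2.torusHom c)⁻¹ =
      xs 0 h0 ((χ : K) * t) * xs 5 h5 (f ((χ : K) * t))
    have e1 := tor_conj c 0 h0 t
    have e2 := tor_conj c 5 h5 (f t)
    have b0' : act (cartanFin chevE6) c ⟨0, h0⟩ = χ := b0
    have b5' : act (cartanFin chevE6) c ⟨5, h5⟩ = Units.map (f : K →* K) χ := b5
    rw [b0'] at e1
    rw [b5'] at e2
    rw [map_mul]
    have e3 : ((Units.map (f : K →* K) χ : Kˣ) : K) = f χ := rfl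
    rw [e3] at e2
    rw [← e1, ← e2]
    group

theorem D24 {χ : Kˣ} (hχ : χ ≠ 1) (t : K) : xs 2 h2 t * xs 4 h4 (f t) ∈ (TT f).DD JJ := by
  set c := gc f (1, 1, χ⁻¹, 1) with hc
  have a0 : c n0 = χ⁻¹ := rfl
  have a2 : c n2 = 1 := rfl
  have a3 : c n3 = 1 := rfl
  have a4 : c n4 = Units.map (f : K →* K) 1 := rfl
  have a5 : c n5 = Units.map (f : K →* K) χ⁻¹ := rfl
  have b0 : act (cartanFin chevE6) c n2 = χ := by
    rw [act_2, a0, a2, a3]
    simp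
  have b5 : act (cartanFin chevE6) c n4 = Units.map (f : K →* K) χ := by
    rw [act_4, a3, a4, a5]
    simp
  have hχ' : (χ : K) ≠ 1 := fun h => hχ (Units.ext h)
  refine (TT f).scale_mem' JJ (ξ := fun t => xs 2 h2 t * xs 4 h4 (f t)) (fun t => ?_) (fun a b => ?_)
    (tor_mem f hf2 (gc_mem f hf2 (1, 1, χ⁻¹, 1))) hχ' (fun t => ?_) t
  · exact (TT f).X_le_AA JJ 3 ((X24_iff f).mpr ⟨t, hf2 t, rfl⟩)
  · show xs 2 h2 a * xs 4 h4 (f a) * (xs 2 h2 b * xs 4 h4 (f b)) = xs 2 h2 (a + b) * xs 4 h4 (f (a + b))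
    rw [map_add]
    have e1 : xs 2 h2 (a + b) = xs 2 h2 a * xs 2 h2 b := (good3.xg_mul _ a b).symm
    have e2 : xs 4 h4 (f a + f b) = xs 4 h4 (f a) * xs 4 h4 (f b) := (good3.xg_mul _ _ _).symm
    rw [e1, e2]
    have e3 := cm24 b (f a)
    calc xs 2 h2 a * xs 4 h4 (f a) * (xs 2 h2 b * xs 4 h4 (f b)) = xs 2 h2 a * (xs 4 h4 (f a) * xs 2 h2 b) * xs 4 h4 (f b) := by group
      _ = _ := by rw [← e3]; group
  · show good3.toGood2.torusHom c * (xs 2 h2 t * xs 4 h4 (f t)) * (good3.toGood2.torusHom c)⁻¹ =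
      xs 2 h2 ((χ : K) * t) * xs 4 h4 (f ((χ : K) * t))
    have e1 := tor_conj c 2 h2 t
    have e2 := tor_conj c 4 h4 (f t)
    have b0' : act (cartanFin chevE6) c ⟨2, h2⟩ = χ := b0
    have b5' : act (cartanFin chevE6) c ⟨4, h4⟩ = Units.map (f : K →* K) χ := b5
    rw [b0'] at e1
    rw [b5'] at e2
    rw [map_mul]
    have e3 : ((Units.map (f : K →* K) χ : Kˣ) : K) = f χ := rfl
    rw [e3] at e2
    rw [← e1, ← e2]
    group

theorem X_le_DD {χ : Kˣ} (hχ : χ ≠ 1) (i : Fin 4) : (TT f).XJ (JJ i) ≤ (TT f).DD JJ := by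
  intro x hx
  fin_cases i
  · obtain ⟨t, ht, rfl⟩ := (X1_iff f).mp hx
    exact D1 f hf2 t ht
  · obtain ⟨t, ht, rfl⟩ := (X3_iff f).mp hx
    exact D3 f hf2 t ht
  · obtain ⟨t, ht, rfl⟩ := (X05_iff f).mp hx
    exact D05 f hf2 hχ t
  · obtain ⟨t, ht, rfl⟩ := (X24_iff f).mp hx
    exact D24 f hf2 hχ t

theorem perfect {χ : Kˣ} (hχ : χ ≠ 1) : commutator ↥((TT f).AA JJ) = ⊤ :=
  (sys f hf2).perfect_of_X (X_le_DD f hf2 hχ)

end

theorem exists_unit_ne_one [Fintype K] {q : ℕ} (hq : 1 < q) (hK : Fintype.card K = q ^ 2) : ∃ χ : Kˣ, χ ≠ 1 := by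
  classical
  have h1 : 1 < Fintype.card Kˣ := by
    rw [Fintype.card_units, hK]
    have : 2 ^ 2 ≤ q ^ 2 := Nat.pow_le_pow_left hq 2
    omega
  obtain ⟨a, ha⟩ := Fintype.exists_ne_of_one_lt_card h1 1
  exact ⟨a, ha⟩

theorem adj01 : good3.toGood2.pp (ww 0) * good3.toGood2.pp (ww 1) * good3.toGood2.pp (ww 0) * good3.toGood2.pp (ww 1) ≠ 1 :=
  good3.adj_of_chk _ _ (r := 46) (by decide) (by decide +kernel)
theorem adj10 : good3.toGood2.pp (ww 1) * good3.toGood2.pp (ww 0) * good3.toGood2.pp (ww 1) * good3.toGood2.pp (ww 0) ≠ 1 :=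
  good3.adj_of_chk _ _ (r := 46) (by decide) (by decide +kernel)
theorem adj13 : good3.toGood2.pp (ww 1) * good3.toGood2.pp (ww 3) * good3.toGood2.pp (ww 1) * good3.toGood2.pp (ww 3) ≠ 1 :=
  good3.adj_of_chk _ _ (r := 39) (by decide) (by decide +kernel)
theorem adj31 : good3.toGood2.pp (ww 3) * good3.toGood2.pp (ww 1) * good3.toGood2.pp (ww 3) * good3.toGood2.pp (ww 1) ≠ 1 :=
  good3.adj_of_chk _ _ (r := 39) (by decide) (by decide +kernel)
theorem adj32 : good3.toGood2.pp (ww 3) * good3.toGood2.pp (ww 2) * good3.toGood2.pp (ww 3) * good3.toGood2.pp (ww 2) ≠ 1 :=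
  good3.adj_of_chk _ _ (r := 42) (by decide) (by decide +kernel)
theorem adj23 : good3.toGood2.pp (ww 2) * good3.toGood2.pp (ww 3) * good3.toGood2.pp (ww 2) * good3.toGood2.pp (ww 3) ≠ 1 :=
  good3.adj_of_chk _ _ (r := 42) (by decide) (by decide +kernel)

theorem simple_AA (f : K ≃+* K) (hf2 : ∀ t, f (f t) = t) {χ : Kˣ} (hχ : χ ≠ 1) :
    IsSimpleGroup ↥((TT f).AA JJ) ∧ ¬ IsMulCommutative ↥((TT f).AA JJ) := by
  obtain ⟨c, hc, hne⟩ := (sys f hf2).ntX 2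
  exact (sys f hf2).simple_of_perfect' (perfect f hf2 hχ) (core_bot f hf2)
    (conn_chain 0 1 3 2 (by decide) _ adj01 adj10 adj13 adj31 adj32 adj23) hc hne

end Cfsg.Agent.Lib.Chev.TwE6
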