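import Cfsg.Agent.Lib.Chev.Tw.ExcAut
import Cfsg.Agent.Lib.Chev.Exc1
import Cfsg.Prelude.Def_LieTwisted

/-!
The group ²F₄(q).
-/

set_option autoImplicit false
set_option maxRecDepth 1000000
set_option linter.unusedSimpArgs false
set_option linter.unusedVariables false
set_option linter.unusedSectionVars false

namespace Cfsg.Agent.Lib.Chev.TwF4

open Cfsg Cfsg.Lie Matrix Cfsg.Agent.Lib.BN Cfsg.Agent.Lib.Chev.Tw TabF4

/-- The nodes. -/
def excI : List ℕ := [3, 2, 1, 0]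

theorem rho_chk : chkRho fd.tbl chevF4.simple W (fun r => excR.getD r 0) (fun i => excI.getD i 0) = true := by decide +kernel
theorem lin_chk : chkLin fd.tbl chevF4.simple W rc = true := by decide +kernel

theorem rhoT : RhoT good3 exc.ρ (fun i => excI.getD i 0) := RhoT.of_chk (tbl_eq ▸ rho_chk)
theorem lin : Lin good3 := Lin.of_chk (tbl_eq ▸ lin_chk)

section

variable {K : Type*} [Field K] [CharP K 2]

/-- The twisting automorphism. -/
noncomputable def TT (f : K ≃+* K) : TwAut good3 K :=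
  TwAut.ofExc good5 exc CoxeterMatrix.F₄ (by set_option backward.isDefEq.respectTransparency false in decide +kernel)
    center_F4 _ rhoT f

/-- The orbits. -/
def JJ : Fin 2 → List ℕ := ![[0, 3], [1, 2]]

/-- Words for the longest elements. -/
def ww : Fin 2 → List (Fin chevF4.rank) :=
  ![[⟨0, by decide⟩, ⟨3, by decide⟩], [⟨1, by decide⟩, ⟨2, by decide⟩, ⟨1, by decide⟩, ⟨2, by decide⟩]]

theorem orb_chk0 : chkOrb fd.tbl W (fun r => excR.getD r 0) (fun i => excI.getD i 0) [0, 3] [0, 3] = true := by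
  decide +kernel
theorem orb_chk1 : chkOrb fd.tbl W (fun r => excR.getD r 0) (fun i => excI.getD i 0) [1, 2] [1, 2, 1, 2] = true := by
  decide +kernel

theorem orb (f : K ≃+* K) (i : Fin 2) : OrbT good3 (TT f).ρ (TT f).ρi (JJ i) (ww i) := by
  fin_cases i
  · exact OrbT.of_chk (ρi' := fun i => excI.getD i 0) (fun _ => rfl) (tbl_eq ▸ orb_chk0)
  · exact OrbT.of_chk (ρi' := fun i => excI.getD i 0) (fun _ => rfl) (tbl_eq ▸ orb_chk1)

theorem n0 : 0 < chevF4.rank := by decide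
theorem n1 : 1 < chevF4.rank := by decide
theorem n2 : 2 < chevF4.rank := by decide
theorem n3 : 3 < chevF4.rank := by decide
theorem h25 : 25 < chevF4.nroots := by decide
theorem h27 : 27 < chevF4.nroots := by decide
theorem h28 : 28 < chevF4.nroots := by decide
theorem h30 : 30 < chevF4.nroots := by decide

/-- Root elements. -/
noncomputable abbrev xP (t : K) : GL chevF4.Idx K := good3.xg (good3.simple_lt n0) t
/-- Root elements. -/
noncomputable abbrev xQ (t : K) : GL chevF4.Idx K := good3.xg (good3.simple_lt n3) t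
/-- Root elements. -/
noncomputable abbrev xb (t : K) : GL chevF4.Idx K := good3.xg h25 t
/-- Root elements. -/
noncomputable abbrev xa (t : K) : GL chevF4.Idx K := good3.xg h27 t
/-- Root elements. -/
noncomputable abbrev xc (t : K) : GL chevF4.Idx K := good3.xg h28 t
/-- Root elements. -/
noncomputable abbrev xe (t : K) : GL chevF4.Idx K := good3.xg h30 t

theorem two_zero : (2 : K) = 0 := by
  have := CharP.cast_eq_zero K 2
  exact_mod_cast this

theorem neg_id (t : K) : -t = t := CharTwo.neg_eq t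

theorem rel_ab (t u : K) : xa u * xb t = xb t * xa u * xc (t * u) * xe (t * u ^ 2) := by
  apply Units.ext
  have := good3.Phi_all (F := K) h25 h27 (by decide) (by decide +kernel) t u
  have e : chevF4.commTerms 25 27 = [(28, 1, 1, 1), (30, -1, 1, 2)] := by decide +kernel
  simp only [ChevalleyDatum.commWord, e, ChevalleyDatum.wordMat] at this
  simp only [Units.val_mul, Good0.xg_val]
  rw [this]
  simp only [List.map_cons, List.map_nil, List.prod_cons, List.prod_nil, mul_one, mul_assoc]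
  push_cast
  have e1 : ((1 : K) * ((-t) ^ 1 * u ^ 1)) = t * u := by
    rw [neg_id]
    ring
  have e2 : ((-1 : K) * ((-t) ^ 1 * u ^ 2)) = t * u ^ 2 := by ring
  rw [e1, e2]

theorem cm_ac (s t : K) : xa s * xc t = xc t * xa s := by
  apply Units.ext
  have := good3.Phi_all (F := K) h28 h27 (by decide) (by decide +kernel) t s
  have e : chevF4.commTerms 28 27 = [(30, -2, 1, 1)] := by decide +kernel
  simp only [ChevalleyDatum.commWord, e, ChevalleyDatum.wordMat] at this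
  simp only [Units.val_mul, Good0.xg_val]
  rw [this]
  simp only [List.map_cons, List.map_nil, List.prod_cons, List.prod_nil, mul_one]
  push_cast
  have e1 : ((-2 : K) * (-t) ^ 1 * s ^ 1) = 0 := by
    rw [neg_eq_neg_one_mul (2 : K), two_zero]
    ring
  rw [e1, good3.x_zero h30, mul_one]

theorem cm_bc (s t : K) : xb s * xc t = xc t * xb s :=
  good3.xg_comm_nil h28 h25 (by decide) (by decide +kernel) (by decide +kernel) t s
theorem cm_ae (s t : K) : xa s * xe t = xe t * xa s :=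
  good3.xg_comm_nil h30 h27 (by decide) (by decide +kernel) (by decide +kernel) t s
theorem cm_be (s t : K) : xb s * xe t = xe t * xb s :=
  good3.xg_comm_nil h30 h25 (by decide) (by decide +kernel) (by decide +kernel) t s
theorem cm_ce (s t : K) : xc s * xe t = xe t * xc s :=
  good3.xg_comm_nil h30 h28 (by decide) (by decide +kernel) (by decide +kernel) t s

theorem xa_mul (s t : K) : xa s * xa t = xa (s + t) := good3.xg_mul h27 s t
theorem xb_mul (s t : K) : xb s * xb t = xb (s + t) := good3.xg_mul h25 s t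
theorem xc_mul (s t : K) : xc s * xc t = xc (s + t) := good3.xg_mul h28 s t
theorem xe_mul (s t : K) : xe s * xe t = xe (s + t) := good3.xg_mul h30 s t

/-- The table order. -/
noncomputable def Tab (q1 q2 q3 q4 : K) : GL chevF4.Idx K := xb q1 * xa q2 * xc q3 * xe q4

/-- The order of the words. -/
noncomputable def Om (p1 p2 p3 p4 : K) : GL chevF4.Idx K := xa p1 * xb p2 * xc p3 * xe p4

/-- The central part. -/
noncomputable abbrev Zz (c e : K) : GL chevF4.Idx K := xc c * xe e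

theorem Z_mul (c e c' e' : K) : Zz c e * Zz c' e' = Zz (c + c') (e + e') := by
  unfold Zz
  rw [← xc_mul, ← xe_mul]
  have e1 := cm_ce c' e
  calc xc c * xe e * (xc c' * xe e') = xc c * (xe e * xc c') * xe e' := by group
    _ = xc c * (xc c' * xe e) * xe e' := by rw [e1]
    _ = _ := by group

theorem Z_a (c e s : K) : Zz c e * xa s = xa s * Zz c e := by
  unfold Zz
  have e1 := cm_ac s c
  have e2 := cm_ae s e
  calc xc c * xe e * xa s = xc c * (xe e * xa s) := by group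
    _ = xc c * (xa s * xe e) := by rw [e2]
    _ = (xc c * xa s) * xe e := by group
    _ = (xa s * xc c) * xe e := by rw [e1]
    _ = _ := by group

theorem Z_b (c e s : K) : Zz c e * xb s = xb s * Zz c e := by
  unfold Zz
  have e1 := cm_bc s c
  have e2 := cm_be s e
  calc xc c * xe e * xb s = xc c * (xe e * xb s) := by group
    _ = xc c * (xb s * xe e) := by rw [e2]
    _ = (xc c * xb s) * xe e := by group
    _ = (xb s * xc c) * xe e := by rw [e1]
    _ = _ := by group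

theorem rel' (t u : K) : xa u * xb t = xb t * xa u * Zz (t * u) (t * u ^ 2) := by
  rw [rel_ab]
  group

theorem Tab_eq (q1 q2 q3 q4 : K) : Tab q1 q2 q3 q4 = xb q1 * xa q2 * Zz q3 q4 := by
  unfold Tab
  group

theorem Om_eq (p1 p2 p3 p4 : K) : Om p1 p2 p3 p4 = Tab p2 p1 (p3 + p2 * p1) (p4 + p2 * p1 ^ 2) := by
  rw [Tab_eq, add_comm p3 (p2 * p1), add_comm p4 (p2 * p1 ^ 2), ← Z_mul]
  unfold Om
  calc xa p1 * xb p2 * xc p3 * xe p4 = xa p1 * xb p2 * Zz p3 p4 := by group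
    _ = _ := by rw [rel']; group

theorem Tab_mul (q1 q2 q3 q4 q1' q2' q3' q4' : K) :
    Tab q1 q2 q3 q4 * Tab q1' q2' q3' q4' =
      Tab (q1 + q1') (q2 + q2') (q1' * q2 + q3 + q3') (q1' * q2 ^ 2 + q4 + q4') := by
  rw [Tab_eq, Tab_eq, Tab_eq]
  calc xb q1 * xa q2 * Zz q3 q4 * (xb q1' * xa q2' * Zz q3' q4')
      = xb q1 * xa q2 * (Zz q3 q4 * xb q1') * xa q2' * Zz q3' q4' := by group
    _ = xb q1 * xa q2 * xb q1' * (Zz q3 q4 * xa q2') * Zz q3' q4' := by rw [Z_b]; group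
    _ = xb q1 * (xa q2 * xb q1') * xa q2' * (Zz q3 q4 * Zz q3' q4') := by rw [Z_a]; group
    _ = xb q1 * (xb q1' * xa q2 * Zz (q1' * q2) (q1' * q2 ^ 2)) * xa q2' * Zz (q3 + q3') (q4 + q4') := by rw [rel', Z_mul]
    _ = xb q1 * xb q1' * xa q2 * (Zz (q1' * q2) (q1' * q2 ^ 2) * xa q2') * Zz (q3 + q3') (q4 + q4') := by group
    _ = (xb q1 * xb q1') * (xa q2 * xa q2') * (Zz (q1' * q2) (q1' * q2 ^ 2) * Zz (q3 + q3') (q4 + q4')) := by rw [Z_a]; group
    _ = _ := by rw [Z_mul, xb_mul, xa_mul, add_assoc, add_assoc]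

/-- The list of positive roots. -/
theorem filter_eq : chevF4.posRoots.filter (fun r => [25, 27, 28, 30].contains r) = [25, 27, 28, 30] := by decide +kernel

theorem Tab_val (q1 q2 q3 q4 : K) :
    ((Tab q1 q2 q3 q4 : GL chevF4.Idx K) : Matrix chevF4.Idx chevF4.Idx K) =
      chevF4.wordMat K ([25, 27, 28, 30].map fun r =>
        (r, if r = 25 then q1 else if r = 27 then q2 else if r = 28 then q3 else q4)) := by
  simp [Tab, ChevalleyDatum.wordMat, mul_assoc]

theorem Tab_inj {q1 q2 q3 q4 q1' q2' q3' q4' : K} (h : Tab q1 q2 q3 q4 = Tab q1' q2' q3' q4') :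
    q1 = q1' ∧ q2 = q2' ∧ q3 = q3' ∧ q4 = q4' := by
  have h1 := congrArg (fun g : GL chevF4.Idx K => (g : Matrix chevF4.Idx chevF4.Idx K)) h
  simp only [Tab_val] at h1
  have h2 := good3.sub_word_inj [25, 27, 28, 30] filter_eq _ _ h1
  have a1 := h2 25 (by simp)
  have a2 := h2 27 (by simp)
  have a3 := h2 28 (by simp)
  have a4 := h2 30 (by simp)
  simp at a1 a2 a3 a4
  exact ⟨a1, a2, a3, a4⟩

theorem Tab_one : Tab (0 : K) 0 0 0 = 1 := by simp [Tab, good3.xg_zero]

theorem spL_chk : chkSp (tblOf chevF4) [1, 2] [25, 27, 28, 30] = true :=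
  tbl_eq ▸ (by decide +kernel : chkSp fd.tbl [1, 2] [25, 27, 28, 30] = true)

theorem Tab_exists {c : GL chevF4.Idx K} (hc : c ∈ rG chevF4 K (Sp chevF4 [1, 2])) :
    ∃ q1 q2 q3 q4 : K, c = Tab q1 q2 q3 q4 := by
  refine good3.rG_induction (P := Sp chevF4 [1, 2]) (fun r h => h.1.1)
    (Q := fun c => ∃ q1 q2 q3 q4 : K, c = Tab q1 q2 q3 q4) ⟨0, 0, 0, 0, Tab_one.symm⟩ ?_ ?_ c hc
  · rintro a b ⟨q1, q2, q3, q4, rfl⟩ ⟨q1', q2', q3', q4', rfl⟩
    exact ⟨_, _, _, _, Tab_mul _ _ _ _ _ _ _ _⟩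
  · intro r hr t hS
    have h := good3.Sp_of_chk spL_chk hS
    simp only [List.mem_cons, List.not_mem_nil, or_false] at h
    rcases h with rfl | rfl | rfl | rfl
    · exact ⟨t, 0, 0, 0, by simp [Tab, good3.xg_zero]⟩
    · exact ⟨0, t, 0, 0, by simp [Tab, good3.xg_zero]⟩
    · exact ⟨0, 0, t, 0, by simp [Tab, good3.xg_zero]⟩
    · exact ⟨0, 0, 0, t, by simp [Tab, good3.xg_zero]⟩

theorem Om_exists {c : GL chevF4.Idx K} (hc : c ∈ rG chevF4 K (Sp chevF4 [1, 2])) :
    ∃ p1 p2 p3 p4 : K, c = Om p1 p2 p3 p4 := by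
  obtain ⟨q1, q2, q3, q4, rfl⟩ := Tab_exists hc
  refine ⟨q2, q1, q3 - q1 * q2, q4 - q1 * q2 ^ 2, ?_⟩
  rw [Om_eq]
  congr 1 <;> ring

theorem rho_33 : exc.ρ 33 = 24 := by decide +kernel
theorem rho_24 : exc.ρ 24 = 33 := by decide +kernel
theorem rho_25 : exc.ρ 25 = 27 := by decide +kernel
theorem rho_27 : exc.ρ 27 = 25 := by decide +kernel
theorem rho_28 : exc.ρ 28 = 30 := by decide +kernel
theorem rho_30 : exc.ρ 30 = 28 := by decide +kernel
theorem lam_33 : exc.lam 33 = 2 := by decide +kernel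
theorem lam_24 : exc.lam 24 = 1 := by decide +kernel
theorem lam_25 : exc.lam 25 = 1 := by decide +kernel
theorem lam_27 : exc.lam 27 = 2 := by decide +kernel
theorem lam_28 : exc.lam 28 = 2 := by decide +kernel
theorem lam_30 : exc.lam 30 = 1 := by decide +kernel

variable (f : K ≃+* K)

theorem s_b (t : K) : (TT f).s (xb t) = xa (f t) := by
  have := (TT f).s_root h25 h27 rho_25 rfl t
  refine this.trans ?_
  show good3.xg h27 (excφ 2 f (exc.lam 25) t) = _
  rw [lam_25, excφ_one]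
theorem s_a (t : K) : (TT f).s (xa t) = xb (f t ^ 2) := by
  have := (TT f).s_root h27 h25 rho_27 rfl t
  refine this.trans ?_
  show good3.xg h25 (excφ 2 f (exc.lam 27) t) = _
  rw [lam_27, excφ_p]
theorem s_c (t : K) : (TT f).s (xc t) = xe (f t ^ 2) := by
  have := (TT f).s_root h28 h30 rho_28 rfl t
  refine this.trans ?_
  show good3.xg h30 (excφ 2 f (exc.lam 28) t) = _
  rw [lam_28, excφ_p]
theorem s_e (t : K) : (TT f).s (xe t) = xc (f t) := by
  have := (TT f).s_root h30 h28 rho_30 rfl t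
  refine this.trans ?_
  show good3.xg h28 (excφ 2 f (exc.lam 30) t) = _
  rw [lam_30, excφ_one]

theorem xm (r : ℕ) (hr : r < chevF4.nroots) (t : K) : good3.xg hr t ∈ chevF4.group K := good3.toGood2.xg_mem_grp hr t

theorem Om_mem (p1 p2 p3 p4 : K) : Om p1 p2 p3 p4 ∈ chevF4.group K :=
  Subgroup.mul_mem _ (Subgroup.mul_mem _ (Subgroup.mul_mem _ (xm _ _ _) (xm _ _ _)) (xm _ _ _)) (xm _ _ _)

theorem s_Om (p1 p2 p3 p4 : K) : (TT f).s (Om p1 p2 p3 p4) = Tab (f p1 ^ 2) (f p2) (f p4) (f p3 ^ 2) := by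
  unfold Om Tab
  have m1 := xm _ h27 p1
  have m2 := xm _ h25 p2
  have m3 := xm _ h28 p3
  have m4 := xm _ h30 p4
  rw [(TT f).s_mul (Subgroup.mul_mem _ (Subgroup.mul_mem _ m1 m2) m3) m4,
    (TT f).s_mul (Subgroup.mul_mem _ m1 m2) m3,
    (TT f).s_mul m1 m2, s_a, s_b, s_c, s_e]
  rw [mul_assoc _ (xe _) (xc _), ← cm_ce, ← mul_assoc]

/-- The word. -/
noncomputable def WW (t u : K) : GL chevF4.Idx K := Om (f t) t (f t * t + u) (f u ^ 2)

theorem add_sq (a b : K) : (a + b) ^ 2 = a ^ 2 + b ^ 2 := add_pow_char a b 2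

section

variable (hf2 : ∀ t, f (f t) ^ 2 = t)
include hf2

theorem WW_fixed (t u : K) : (TT f).s (WW f t u) = WW f t u := by
  unfold WW
  rw [s_Om, Om_eq]
  congr 1
  · exact hf2 t
  · rw [map_pow, hf2]
    have : t * f t + t * f t = 0 := CharTwo.add_self_eq_zero _
    linear_combination (-1 : K) * this
  · rw [map_add, map_mul, add_sq, mul_pow, hf2]
    ring

end

theorem hsp28 : Sp chevF4 [1, 2] 28 :=
  ⟨(good3.toGood2.pos_iff h28).mpr (by decide), (inSubT_iff h28).mp (tbl_eq ▸ (by decide +kernel : inSubT fd.tbl [1, 2] 28 = true))⟩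
theorem hsp30 : Sp chevF4 [1, 2] 30 :=
  ⟨(good3.toGood2.pos_iff h30).mpr (by decide), (inSubT_iff h30).mp (tbl_eq ▸ (by decide +kernel : inSubT fd.tbl [1, 2] 30 = true))⟩
theorem hsp25 : Sp chevF4 [1, 2] 25 :=
  ⟨(good3.toGood2.pos_iff h25).mpr (by decide), (inSubT_iff h25).mp (tbl_eq ▸ (by decide +kernel : inSubT fd.tbl [1, 2] 25 = true))⟩
theorem hsp27 : Sp chevF4 [1, 2] 27 :=
  ⟨(good3.toGood2.pos_iff h27).mpr (by decide), (inSubT_iff h27).mp (tbl_eq ▸ (by decide +kernel : inSubT fd.tbl [1, 2] 27 = true))⟩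

theorem Om_Sp (p1 p2 p3 p4 : K) : Om p1 p2 p3 p4 ∈ rG chevF4 K (Sp chevF4 [1, 2]) :=
  Subgroup.mul_mem _ (Subgroup.mul_mem _ (Subgroup.mul_mem _ (good3.xg_mem h27 hsp27 _) (good3.xg_mem h25 hsp25 _))
    (good3.xg_mem h28 hsp28 _)) (good3.xg_mem h30 hsp30 _)

theorem rho_s0 : exc.ρ (chevF4.simple 0) = chevF4.simple 3 := by decide +kernel
theorem rho_s3 : exc.ρ (chevF4.simple 3) = chevF4.simple 0 := by decide +kernel
theorem sp_chk03 : chkSp (tblOf chevF4) [0, 3] [chevF4.simple 0, chevF4.simple 3] = true :=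
  tbl_eq ▸ (by decide +kernel : chkSp fd.tbl [0, 3] [chevF4.simple 0, chevF4.simple 3] = true)
theorem ct03 : chevF4.commTerms (chevF4.simple 3) (chevF4.simple 0) = [] := by decide +kernel

theorem cmPQ (s t : K) : xP s * xQ t = xQ t * xP s :=
  good3.xg_comm_nil (good3.simple_lt n3) (good3.simple_lt n0) (by decide +kernel) (by decide +kernel) ct03 t s

theorem phi0 (t : K) : (TT f).φ (chevF4.simple 0) t = f t ^ 2 := by
  show excφ 2 f (exc.lam (chevF4.simple 0)) t = _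
  rw [(by decide +kernel : exc.lam (chevF4.simple 0) = 2), excφ_p]

theorem phi3 (t : K) : (TT f).φ (chevF4.simple 3) t = f t := by
  show excφ 2 f (exc.lam (chevF4.simple 3)) t = _
  rw [(by decide +kernel : exc.lam (chevF4.simple 3) = 1), excφ_one]

section Main

variable (hf2 : ∀ t, f (f t) ^ 2 = t)
include hf2

theorem X0_iff {c : GL chevF4.Idx K} : c ∈ (TT f).XJ [0, 3] ↔ ∃ t, c = xP (f t) * xQ t := by
  rw [(TT f).X_pair lin n0 n3 (by norm_num) rho_s0 rho_s3 rfl rfl sp_chk03 cmPQ]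
  constructor
  · rintro ⟨t, h1, rfl⟩
    rw [phi0, phi3, map_pow] at h1
    refine ⟨f t ^ 2, ?_⟩
    rw [phi0, map_pow, h1]
  · rintro ⟨t, rfl⟩
    refine ⟨f t, ?_, ?_⟩
    · rw [phi0, phi3, hf2]
    · rw [phi0, hf2]

theorem X1_iff {c : GL chevF4.Idx K} : c ∈ (TT f).XJ [1, 2] ↔ ∃ t u, c = WW f t u := by
  constructor
  · rintro ⟨h1, -, h3⟩
    obtain ⟨p1, p2, p3, p4, rfl⟩ := Om_exists h1
    rw [s_Om, Om_eq] at h3
    obtain ⟨a1, a2, a3, a4⟩ := Tab_inj h3
    refine ⟨p2, f p4, ?_⟩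
    unfold WW
    have e1 : p1 = f p2 := a2.symm
    have e3 : p3 = f p2 * p2 + f p4 := by
      rw [a3, e1]
      have h' : p2 * f p2 + p2 * f p2 = 0 := CharTwo.add_self_eq_zero _
      linear_combination (-1 : K) * h'
    rw [e1, e3, hf2]
  · rintro ⟨t, u, rfl⟩
    exact ⟨Om_Sp _ _ _ _, Om_mem _ _ _ _, WW_fixed f hf2 t u⟩

theorem WW_ne {t u : K} (ht : t ≠ 0) : WW f t u ≠ 1 := by
  intro h
  unfold WW at h
  rw [Om_eq, ← Tab_one (K := K)] at h
  exact ht (Tab_inj h).1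

theorem PQ_ne {t : K} (ht : t ≠ 0) : xP (f t) * xQ t ≠ 1 := by
  refine (TT f).mul_ne_one lin n0 (J := [0]) (by simp) (by simpa using ht) (y := xQ t) ?_
  exact good3.xg_mem _ ((TT f).simple_Qp lin n3 (by simp)) _

theorem invD : InvD (good5.inv) := ⟨good5.inv_ρ, good5.inv_ε⟩

theorem sys : TwSys (TT f) JJ ww where
  orb := orb f
  lin := lin
  disj := by
    intro i i' hne
    fin_cases i <;> fin_cases i'
    · exact absurd rfl hne
    · exact ⟨0, by simp [JJ], by simp [JJ]⟩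
    · exact ⟨1, by simp [JJ], by simp [JJ]⟩
    · exact absurd rfl hne
  cover := by
    rintro ⟨x, hx⟩
    have hx4 : x < 4 := hx
    interval_cases x
    · exact ⟨0, by simp [JJ]⟩
    · exact ⟨1, by simp [JJ]⟩
    · exact ⟨1, by simp [JJ]⟩
    · exact ⟨0, by simp [JJ]⟩
  ntX := by
    intro i
    fin_cases i
    · exact ⟨xP (f 1) * xQ 1, (X0_iff f hf2).mpr ⟨1, rfl⟩, PQ_ne f hf2 one_ne_zero⟩
    · exact ⟨WW f 1 0, (X1_iff f hf2).mpr ⟨1, 0, rfl⟩, WW_ne f hf2 one_ne_zero⟩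
  ntY := by
    intro i
    fin_cases i
    · exact ⟨TwAut.iot good5.inv K (xP (f 1) * xQ 1), (TT f).iot_X (invD f hf2) ((X0_iff f hf2).mpr ⟨1, rfl⟩),
        fun h => PQ_ne f hf2 one_ne_zero (TwAut.iot_ne h)⟩
    · exact ⟨TwAut.iot good5.inv K (WW f 1 0), (TT f).iot_X (invD f hf2) ((X1_iff f hf2).mpr ⟨1, 0, rfl⟩),
        fun h => WW_ne f hf2 one_ne_zero (TwAut.iot_ne h)⟩

variable {e : ℕ} (hf : ∀ t, f t = t ^ e)
include hf

theorem P_val (t : K) : ((xP (f t) * xQ t : GL chevF4.Idx K) : Matrix chevF4.Idx chevF4.Idx K) =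
    chevF4.wordMat K (f4PairWord e f4p1 f4p4 t) := by
  have e1 : chevF4.simple 0 = f4p1 := by decide +kernel
  have e2 : chevF4.simple 3 = f4p4 := by decide +kernel
  simp only [f4PairWord, ← hf, xP, xQ, ← e1, ← e2]
  simp [ChevalleyDatum.wordMat]

theorem iot_P_val (t : K) : ((TwAut.iot good5.inv K (xP (f t) * xQ t) : GL chevF4.Idx K) : Matrix chevF4.Idx chevF4.Idx K) =
    chevF4.wordMat K (f4PairWord e f4m1 f4m4 t) := by
  have i1 := fun (r : ℕ) (hr : r < chevF4.nroots) (t : K) => TwAut.iot_x (F := K) (invD f hf2) good3 hr t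
  have e1 : chevF4.neg (chevF4.simple 0) = f4m1 := by decide +kernel
  have e2 : chevF4.neg (chevF4.simple 3) = f4m4 := by decide +kernel
  simp only [f4PairWord, ← hf, xP, xQ, TwAut.iot_mul, i1, neg_id, ← e1, ← e2]
  simp [ChevalleyDatum.wordMat]

theorem W_val (t u : K) : ((WW f t u : GL chevF4.Idx K) : Matrix chevF4.Idx chevF4.Idx K) =
    chevF4.wordMat K (b2ClassWord e f4a f4b f4ab f4aab t u) := by
  have e1 : t ^ (e + 1) = f t * t := by rw [hf, pow_succ]
  have e2 : u ^ (2 * e) = f u ^ 2 := by rw [hf, mul_comm 2 e, pow_mul]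
  simp only [b2ClassWord, e1, e2, ← hf, WW, Om, f4a, f4b, f4ab, f4aab]
  simp [ChevalleyDatum.wordMat, mul_assoc]

theorem iot_W_val (t u : K) : ((TwAut.iot good5.inv K (WW f t u) : GL chevF4.Idx K) : Matrix chevF4.Idx chevF4.Idx K) =
    chevF4.wordMat K (b2ClassWord e f4ma f4mb f4mab f4maab t u) := by
  have e1 : t ^ (e + 1) = f t * t := by rw [hf, pow_succ]
  have e2 : u ^ (2 * e) = f u ^ 2 := by rw [hf, mul_comm 2 e, pow_mul]
  have i1 := fun (r : ℕ) (hr : r < chevF4.nroots) (t : K) => TwAut.iot_x (F := K) (invD f hf2) good3 hr t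
  have n1 : chevF4.neg 27 = f4ma := by decide +kernel
  have n2 : chevF4.neg 25 = f4mb := by decide +kernel
  have n3 : chevF4.neg 28 = f4mab := by decide +kernel
  have n4 : chevF4.neg 30 = f4maab := by decide +kernel
  simp only [b2ClassWord, e1, e2, ← hf, WW, Om, TwAut.iot_mul, i1, neg_id, ← n1, ← n2, ← n3, ← n4]
  simp [ChevalleyDatum.wordMat, mul_assoc]

theorem AA_eq : (TT f).AA JJ = twistedF4 K e := by
  apply le_antisymm
  · rw [TwAut.AA, Subgroup.closure_le]
    intro x hx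
    obtain ⟨i, hx⟩ := Set.mem_iUnion.mp hx
    apply Subgroup.subset_closure
    fin_cases i
    · rcases hx with hx | hx
      · obtain ⟨t, rfl⟩ := (X0_iff f hf2).mp hx
        exact ⟨_, Or.inl ⟨t, Or.inl rfl⟩, P_val f hf2 hf t⟩
      · obtain ⟨c, hc, rfl⟩ := ((TT f).mem_Y_iff (invD f hf2)).mp hx
        obtain ⟨t, rfl⟩ := (X0_iff f hf2).mp hc
        exact ⟨_, Or.inl ⟨t, Or.inr rfl⟩, iot_P_val f hf2 hf t⟩
    · rcases hx with hx | hx
      · obtain ⟨t, u, rfl⟩ := (X1_iff f hf2).mp hx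
        exact ⟨_, Or.inr ⟨t, u, Or.inl rfl⟩, W_val f hf2 hf t u⟩
      · obtain ⟨c, hc, rfl⟩ := ((TT f).mem_Y_iff (invD f hf2)).mp hx
        obtain ⟨t, u, rfl⟩ := (X1_iff f hf2).mp hc
        exact ⟨_, Or.inr ⟨t, u, Or.inr rfl⟩, iot_W_val f hf2 hf t u⟩
  · apply (Subgroup.closure_le _).mpr
    rintro g ⟨w, ⟨t, rfl | rfl⟩ | ⟨t, u, rfl | rfl⟩, hg⟩
    · have : g = xP (f t) * xQ t := Units.ext (by rw [hg, P_val f hf2 hf])
      rw [this]
      exact (TT f).X_le_AA JJ 0 ((X0_iff f hf2).mpr ⟨t, rfl⟩)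
    · have : g = TwAut.iot good5.inv K (xP (f t) * xQ t) := Units.ext (by rw [hg, iot_P_val f hf2 hf])
      rw [this]
      exact (TT f).Y_le_AA JJ 0 ((TT f).iot_X (invD f hf2) ((X0_iff f hf2).mpr ⟨t, rfl⟩))
    · have : g = WW f t u := Units.ext (by rw [hg, W_val f hf2 hf])
      rw [this]
      exact (TT f).X_le_AA JJ 1 ((X1_iff f hf2).mpr ⟨t, u, rfl⟩)
    · have : g = TwAut.iot good5.inv K (WW f t u) := Units.ext (by rw [hg, iot_W_val f hf2 hf])
      rw [this]
      exact (TT f).Y_le_AA JJ 1 ((TT f).iot_X (invD f hf2) ((X1_iff f hf2).mpr ⟨t, u, rfl⟩))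

end Main

end

end Cfsg.Agent.Lib.Chev.TwF4
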