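import Cfsg.Agent.Lib.Chev.Tw.Count
import Cfsg.Agent.Lib.Chev.Long
import Cfsg.Agent.Lib.Known.BNStFix

/-!
The Steinberg function of a twisted group vanishes on nontrivial elements of `U`.
-/

set_option autoImplicit false
set_option linter.unusedSimpArgs false
set_option linter.unusedVariables false
set_option linter.unusedSectionVars false

namespace Cfsg.Agent.Lib.Chev

open Cfsg Cfsg.Lie Matrix Cfsg.Agent.Lib.BN Cfsg.Agent.Lib.Chev.Tw Cfsg.Agent.Lib.Known.BNSt MulAction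

variable {D : ChevalleyDatum} {F : Type*} [Field F]

namespace TwSys

variable {G : Good3 D} {T : TwAut G F} {ι : Type*} {J : ι → List ℕ} {w : ι → List (Fin D.rank)} (S : TwSys T J w)
include S

theorem sG_val (i : ι) : ((S.sG i : ↥(T.AA J)) : GL D.Idx F) = S.nJ i := rfl

/-- The labelling of the generators. -/
theorem lab [DecidableEq ι] [Fintype ι] : Lab S.PP Finset.univ S.sG := by
  constructor
  · ext x
    constructor
    · rintro ⟨i, -, rfl⟩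
      exact S.sG_mem i
    · rintro ⟨i, e⟩
      exact ⟨i, by simp, Subtype.ext e.symm⟩
  · intro i _ j _ e
    have e1 : S.nJ i = S.nJ j := congrArg Subtype.val e
    have h1 := S.nJ_mono i
    have h2 := S.nJ_mono j
    rw [e1] at h1
    exact S.pp_inj (h1.uniq h2)

variable {l₀ : List ι} (hl₀ : LongW G J w l₀)
include hl₀

theorem conj_V_U {v : GL D.Idx F} (hv : v ∈ D.negUnipotent F) :
    (S.prodL l₀ : GL D.Idx F) * v * (S.prodL l₀ : GL D.Idx F)⁻¹ ∈ D.posUnipotent F := by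
  have h := G.toGood2.conj_U_V (n := (S.prodL l₀ : GL D.Idx F)⁻¹) (Subgroup.inv_mem _ (S.prodL_N0 l₀))
    (G.toGood2.N0_inv_isMono (S.prodL_N0 l₀) (S.prodL_mono l₀)) hl₀.neg
  rw [← h] at hv
  obtain ⟨u, hu, rfl⟩ := hv
  simpa [MulAut.conj_apply, mul_assoc] using hu

/-- The long word is a top element. -/
theorem top_long : Top S.PP (S.prodL l₀) := by
  rintro s₀ ⟨i, e₀⟩
  obtain rfl : s₀ = S.sG i := Subtype.ext e₀
  have hn₁ := S.prodL_N l₀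
  have hs := S.sG_mem i
  have hsN := S_mem_N hs
  have h1 : ((S.prodL l₀ * S.sG i)⁻¹ : ↥(T.AA J)) ∈ S.PP.N := S.PP.N.inv_mem (S.PP.N.mul_mem hn₁ hsN)
  have h2 := S.len_up i h1 (by
    intro c hc
    have h3 : S.nJ i * c * (S.nJ i)⁻¹ ∈ D.negUnipotent F := T.Sm_le_V _ (S.nJ_conj_S i hc.1)
    have h4 := S.conj_V_U hl₀ h3
    apply G.U_le_B
    have e : (((S.prodL l₀ * S.sG i)⁻¹ : ↥(T.AA J)) : GL D.Idx F)⁻¹ * c * (((S.prodL l₀ * S.sG i)⁻¹ : ↥(T.AA J)) : GL D.Idx F) =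
        (S.prodL l₀ : GL D.Idx F) * (S.nJ i * c * (S.nJ i)⁻¹) * (S.prodL l₀ : GL D.Idx F)⁻¹ := by
      simp only [InvMemClass.coe_inv, Subgroup.coe_mul, sG_val]
      group
    rw [e]
    exact h4)
  have e1 : S.sG i * (S.prodL l₀ * S.sG i)⁻¹ = (S.prodL l₀)⁻¹ := by group
  rw [e1] at h2
  rw [Cfsg.Agent.Lib.Known.BNSt.len_inv (S.PP.N.mul_mem hn₁ hsN), Cfsg.Agent.Lib.Known.BNSt.len_inv hn₁] at h2
  exact h2

/-- The Steinberg function vanishes on nontrivial elements of `U`. -/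
theorem St_U_zero [DecidableEq ι] [Fintype ι] [Finite F] {a : ↥(T.AA J)} (ha : (a : GL D.Idx F) ∈ D.posUnipotent F) (hne : a ≠ 1) :
    St S.PP Finset.univ S.sG a = 0 := by
  haveI : Finite ↥(T.AA J) := inferInstance
  have haB : a ∈ S.PP.B := S.mem_B.mpr (G.U_le_B ha)
  have h := St_of_mem_B_eq S.lab (S.prodL_N l₀) (S.top_long hl₀) ⟨a, haB⟩
  simp only at h
  rw [h]
  have hE : IsEmpty (fixedBy (S.PP.B ⧸ topStab S.PP (S.prodL l₀)) (⟨a, haB⟩ : S.PP.B)) := by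
    constructor
    rintro ⟨x, hx⟩
    obtain ⟨t, rfl⟩ := QuotientGroup.mk_surjective x
    have h1 : (((⟨a, haB⟩ : S.PP.B) * t : S.PP.B) : S.PP.B ⧸ topStab S.PP (S.prodL l₀)) = (t : S.PP.B ⧸ topStab S.PP (S.prodL l₀)) := hx
    have h2 := QuotientGroup.eq.mp h1.symm
    rw [mem_topStab] at h2
    have ht := S.mem_B.mp t.2
    -- conjugating into `U`
    have h3 : ((t : ↥(T.AA J)) : GL D.Idx F)⁻¹ * a * (t : ↥(T.AA J)) ∈ D.posUnipotent F := by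
      obtain ⟨u₁, hu₁, k, hk, e⟩ := G.toGood2.B_form.mp (Subgroup.inv_mem _ ht)
      have e2 : ((t : ↥(T.AA J)) : GL D.Idx F)⁻¹ * a * (t : ↥(T.AA J)) = u₁ * (k * a * k⁻¹) * u₁⁻¹ := by
        have : ((t : ↥(T.AA J)) : GL D.Idx F) = (((t : ↥(T.AA J)) : GL D.Idx F)⁻¹)⁻¹ := by group
        calc ((t : ↥(T.AA J)) : GL D.Idx F)⁻¹ * a * (t : ↥(T.AA J))
            = ((t : ↥(T.AA J)) : GL D.Idx F)⁻¹ * a * (((t : ↥(T.AA J)) : GL D.Idx F)⁻¹)⁻¹ := by rw [← this]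
          _ = _ := by rw [e]; group
      rw [e2]
      exact Subgroup.mul_mem _ (Subgroup.mul_mem _ hu₁ (G.toGood2.U_pos_conj hk ha)) (Subgroup.inv_mem _ hu₁)
    have h4 := S.conj_U_V hl₀ h3
    have h5 := S.mem_B.mp h2
    have h6 : ((S.prodL l₀ : GL D.Idx F))⁻¹ * (((t : ↥(T.AA J)) : GL D.Idx F)⁻¹ * a * (t : ↥(T.AA J))) * (S.prodL l₀ : GL D.Idx F) ∈ D.borelSubgroup F := by
      convert h5 using 1
      simp only [InvMemClass.coe_inv, Subgroup.coe_mul, _root_.mul_inv_rev]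
      group
    have h7 : ((S.prodL l₀ : GL D.Idx F))⁻¹ * (((t : ↥(T.AA J)) : GL D.Idx F)⁻¹ * a * (t : ↥(T.AA J))) * (S.prodL l₀ : GL D.Idx F) ∈
        D.borelSubgroup F ⊓ D.negUnipotent F := ⟨h6, h4⟩
    rw [G.B_inf_V, Subgroup.mem_bot] at h7
    apply hne
    apply Subtype.ext
    have h8 : ((t : ↥(T.AA J)) : GL D.Idx F)⁻¹ * a * (t : ↥(T.AA J)) = 1 := by
      have e3 : ((t : ↥(T.AA J)) : GL D.Idx F)⁻¹ * a * (t : ↥(T.AA J)) = (S.prodL l₀ : GL D.Idx F) * (((S.prodL l₀ : GL D.Idx F))⁻¹ * (((t : ↥(T.AA J)) : GL D.Idx F)⁻¹ * a * (t : ↥(T.AA J))) * (S.prodL l₀ : GL D.Idx F)) * (S.prodL l₀ : GL D.Idx F)⁻¹ := by group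
      rw [e3, h7]
      group
    have e4 : (a : GL D.Idx F) = ((t : ↥(T.AA J)) : GL D.Idx F) * (((t : ↥(T.AA J)) : GL D.Idx F)⁻¹ * a * (t : ↥(T.AA J))) * ((t : ↥(T.AA J)) : GL D.Idx F)⁻¹ := by group
    rw [e4, h8]
    simp
  rw [Nat.card_of_isEmpty]
  simp

end TwSys

end Cfsg.Agent.Lib.Chev
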