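import Cfsg.Agent.Lib.Chev.Tw.F4e
import Cfsg.Agent.Lib.Chev.Tw.StFix

/-!
Centralizers of involutions in ²F₄(q).
-/

set_option autoImplicit false
set_option maxRecDepth 1000000
set_option linter.unusedSimpArgs false
set_option linter.unusedVariables false
set_option linter.unusedSectionVars false

namespace Cfsg.Agent.Lib.Chev.TwF4

open Cfsg Cfsg.Lie Matrix Cfsg.Agent.Lib.BN Cfsg.Agent.Lib.Chev.Tw Cfsg.Agent.Lib.Known.BNSt
  Cfsg.Agent.Lib.Known.BNStFix TabF4

theorem prime_nt {q r : ℕ} (hq : 1 ≤ q) (hr : r.Prime) (hn : ¬ r ∣ q * (q ^ 4 - 1)) :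
    ¬ r ∣ q ∧ ¬ r ∣ q - 1 ∧ ¬ r ∣ 1 + q ∧ ¬ r ∣ 1 + q ^ 2 := by
  obtain ⟨c, rfl⟩ : ∃ c, q = c + 1 := ⟨q - 1, by omega⟩
  have e : (c + 1) ^ 4 - 1 = c * ((1 + (c + 1)) * (1 + (c + 1) ^ 2)) := by
    apply Nat.sub_eq_of_eq_add
    ring
  rw [e] at hn
  simp only [Nat.add_sub_cancel]
  refine ⟨fun h => hn (h.mul_right _), fun h => hn (Dvd.dvd.mul_left (h.mul_right _) _),
    fun h => hn (Dvd.dvd.mul_left (Dvd.dvd.mul_left (h.mul_right _) _) _),
    fun h => hn (Dvd.dvd.mul_left (Dvd.dvd.mul_left (Dvd.dvd.mul_left h _) _) _)⟩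

variable {K : Type*} [Field K] [CharP K 2] [Fintype K] (f : K ≃+* K) (hf2 : ∀ t, f (f t) ^ 2 = t)
include hf2

theorem card_B_par : Nat.card ↥(sys f hf2).PP.B = Fintype.card K ^ 12 * (Fintype.card K - 1) ^ 2 := by
  have hB : Nat.card ↥(sys f hf2).PP.B = Nat.card ↥(chevF4.borelSubgroup K ⊓ (TT f).AA JJ) :=
    Nat.card_congr (Subgroup.subgroupOfEquivOfLe inf_le_right).toEquiv
  rw [hB, (sys f hf2).card_B1 (long f hf2), card_U1 f hf2, card_H1 f hf2, Nat.card_units, Nat.card_eq_fintype_card]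

theorem card_par (i : Fin 2) : Nat.card ((sys f hf2).PP.parabolic (JS (sys f hf2).sG {i})) =
    Fintype.card K ^ 12 * (Fintype.card K - 1) ^ 2 * (1 + Nat.card ↥((TT f).XJ (JJ i))) := by
  have S := sys f hf2
  obtain ⟨Tt, hc, hT⟩ := (sys f hf2).Cell_step_exists i
  have e : JS (sys f hf2).sG ({i} : Finset (Fin 2)) = {(sys f hf2).sG i} := by simp [JS]
  rw [e, card_parabolic_single ((sys f hf2).sG_mem i) hT, hc, card_B_par f hf2]

omit hf2 in
theorem finset_fin2 : ∀ J : Finset (Fin 2), J ≠ Finset.univ → J = ∅ ∨ J = {0} ∨ J = {1} := by decide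

/-- A prime order element commuting with an involution. -/
theorem prime_dvd_of_commute {n : ℕ} (hn0 : n ≠ 0) (hq : Fintype.card K = 2 ^ n) {a b : ↥((TT f).AA JJ)} (ha : orderOf a = 2) (hab : Commute a b)
    {r : ℕ} (hr : r.Prime) (hb : orderOf b = r) :
    r ∣ Fintype.card K * (Fintype.card K ^ 4 - 1) := by
  by_contra hn
  haveI h2 : Fact (Nat.Prime 2) := ⟨Nat.prime_two⟩
  haveI : Finite ↥((TT f).AA JJ) := inferInstance
  have hq1 : 1 ≤ Fintype.card K := Fintype.card_pos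
  obtain ⟨n1, n2, n3, n4⟩ := prime_nt hq1 hr hn
  have hB : ¬ r ∣ Fintype.card K ^ 12 * (Fintype.card K - 1) ^ 2 := by
    intro h
    rcases (Nat.Prime.dvd_mul hr).mp h with h | h
    · exact n1 (hr.dvd_of_dvd_pow h)
    · exact n2 (hr.dvd_of_dvd_pow h)
  -- the Sylow subgroup
  let V : Subgroup ↥((TT f).AA JJ) := (chevF4.posUnipotent K ⊓ (TT f).AA JJ).subgroupOf ((TT f).AA JJ)
  have hV : Nat.card V = Fintype.card K ^ 12 :=
    (Nat.card_congr (Subgroup.subgroupOfEquivOfLe inf_le_right).toEquiv).trans (card_U1 f hf2)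
  have hVp : IsPGroup 2 V := by
    apply IsPGroup.of_card (n := n * 12)
    rw [hV, hq, pow_mul]
  have hI : ¬ 2 ∣ V.index := by
    have h1 := Subgroup.index_mul_card V
    rw [hV] at h1
    have h3 := card_G f hf2
    rw [← h1] at h3
    push_cast at h3
    have h4 : ((Fintype.card K : ℤ) ^ 12) ≠ 0 := by
      have : (Fintype.card K : ℤ) ≠ 0 := by exact_mod_cast (by omega : Fintype.card K ≠ 0)
      exact pow_ne_zero _ this
    have h5 : (V.index : ℤ) = ((Fintype.card K : ℤ) - 1) *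
        (((Fintype.card K : ℤ) ^ 3 + 1) * (((Fintype.card K : ℤ) ^ 4 + -1) * ((Fintype.card K : ℤ) ^ 6 + 1))) := by
      apply mul_right_cancel₀ h4
      rw [h3]
      ring
    have hE : Even (Fintype.card K : ℤ) := by
      rw [hq]
      push_cast
      exact (even_two).pow_of_ne_zero hn0
    have hO : Odd (V.index : ℤ) := by
      rw [h5]
      exact (hE.sub_odd odd_one).mul (((hE.pow_of_ne_zero (by norm_num)).add_odd odd_one).mul
        (((hE.pow_of_ne_zero (by norm_num)).add_odd odd_one.neg).mul ((hE.pow_of_ne_zero (by norm_num)).add_odd odd_one)))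
    have hO' : Odd V.index := (Int.odd_coe_nat _).mp hO
    exact hO'.not_two_dvd_nat
  let Syl : Sylow 2 ↥((TT f).AA JJ) := hVp.toSylow hI
  -- conjugating the involution
  have hza : IsPGroup 2 (Subgroup.zpowers a) := by
    apply IsPGroup.of_card (n := 1)
    rw [Nat.card_zpowers, ha, pow_one]
  obtain ⟨Q, hQ⟩ := hza.exists_le_sylow
  obtain ⟨g, hg⟩ := MulAction.exists_smul_eq ↥((TT f).AA JJ) Q Syl
  have h3 : a ∈ (Q : Subgroup ↥((TT f).AA JJ)) := hQ (Subgroup.mem_zpowers a)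
  have h4 : g * a * g⁻¹ ∈ (Syl : Subgroup ↥((TT f).AA JJ)) := by
    rw [← hg, Sylow.coe_subgroup_smul]
    have := Subgroup.smul_mem_pointwise_smul a (MulAut.conj g) (Q : Subgroup ↥((TT f).AA JJ)) h3
    simpa [MulAut.conj_apply] using this
  have h5 : g * a * g⁻¹ ∈ V := h4
  have h6 : ((g * a * g⁻¹ : ↥((TT f).AA JJ)) : GL chevF4.Idx K) ∈ chevF4.posUnipotent K := (Subgroup.mem_subgroupOf.mp h5).1
  have hoa : orderOf (g * a * g⁻¹) = 2 := by
    have := MulEquiv.orderOf_eq (MulAut.conj g) a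
    rw [ha] at this
    simpa [MulAut.conj_apply] using this
  have hob : orderOf (g * b * g⁻¹) = r := by
    have := MulEquiv.orderOf_eq (MulAut.conj g) b
    rw [hb] at this
    simpa [MulAut.conj_apply] using this
  have hne : g * a * g⁻¹ ≠ 1 := by
    intro h
    rw [h, orderOf_one] at hoa
    omega
  have hcm : Commute (g * a * g⁻¹) (g * b * g⁻¹) := by
    have e : a * b = b * a := hab
    show g * a * g⁻¹ * (g * b * g⁻¹) = g * b * g⁻¹ * (g * a * g⁻¹)
    calc g * a * g⁻¹ * (g * b * g⁻¹) = g * (a * b) * g⁻¹ := by group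
      _ = g * (b * a) * g⁻¹ := by rw [e]
      _ = _ := by group
  have h0 := (sys f hf2).St_U_zero (long f hf2) h6 hne
  refine St_ne_zero_of_commute (sys f hf2).lab hcm hr hob ?_ h0
  intro J _ hJ
  rcases finset_fin2 J hJ with rfl | rfl | rfl
  · have e : JS (sys f hf2).sG (∅ : Finset (Fin 2)) = ∅ := by simp [JS]
    rw [e, parabolic_empty, card_B_par f hf2]
    exact hB
  · rw [card_par f hf2, show JJ (0 : Fin 2) = [0, 3] from rfl, card_X0 f hf2]
    intro h
    rcases (Nat.Prime.dvd_mul hr).mp h with h | h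
    · exact hB h
    · exact n3 h
  · rw [card_par f hf2, show JJ (1 : Fin 2) = [1, 2] from rfl, card_X1 f hf2]
    intro h
    rcases (Nat.Prime.dvd_mul hr).mp h with h | h
    · exact hB h
    · exact n4 h

end Cfsg.Agent.Lib.Chev.TwF4
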