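import Cfsg.Agent.Lib.Chev.Tw.F4
import Cfsg.Agent.Lib.Chev.Tri
import Cfsg.Agent.Lib.Known.ChevUnip

/-!
Two-elements of `F₄(K)` in characteristic two have order at most `32`.
-/

set_option autoImplicit false
set_option maxRecDepth 1000000
set_option linter.unusedSimpArgs false
set_option linter.unusedVariables false
set_option linter.unusedSectionVars false

namespace Cfsg.Agent.Lib.Chev.TwF4

open Cfsg Cfsg.Lie Matrix Cfsg.Agent.Lib.BN Cfsg.Agent.Lib.Chev.Tw TabF4 Cfsg.Agent.Lib.Known.BNSt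

/-- Shifted root heights, along the `phi` ordering. -/
def hhL : List ℕ := [0,1,2,3,4,5,6,4,5,6,7,7,8,9,10,6,7,8,8,9,10,9,10,10, 11,
  12,12,13,12,13,14,14,15,16,12,13,14,15,15,16,17,18,16,17,18,19,20,21,22]

def hh (n : ℕ) : ℕ := hhL.getD n 0

def phiN (n : ℕ) : ℕ := if n < 24 then n else n + 1

theorem hh_chk : ∀ r : Fin 48, 24 ≤ r.val →
    hh 24 < hh (phiN r) ∧ hh (phiN (chevF4.neg r)) < hh 24 ∧ hh (phiN (chevF4.neg r)) < hh (phiN r) ∧
    ∀ v : Fin 48, ∀ q ∈ chevF4.chainEntry r v, hh (phiN v) < hh (phiN q.1) := by decide +kernel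

theorem hh_bd : ∀ r : Fin 48, hh (phiN r) ≤ 22 := by decide +kernel

variable {F : Type*} [Field F]

theorem phi_inr (v : Fin chevF4.nroots) : phi chevF4 (Sum.inr v) = phiN v.val := rfl

theorem phi_inl (i : Fin chevF4.rank) : phi chevF4 (Sum.inl i) = 24 := rfl

theorem x_UTri_hh {r : ℕ} (hr : r < chevF4.nroots) (hN : Good2.NN chevF4 ≤ r) (t : F) :
    UTri (fun a b => hh a < hh b) (chevF4.x F r t) := by
  have hr24 : 24 ≤ r := hN
  obtain ⟨h1, h2, h3, h4⟩ := hh_chk ⟨r, hr⟩ hr24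
  refine good3.toGood2.x_UTri hr t ?_ ?_ ?_ ?_ ?_
  · intro i
    rw [phi_inl, phi_inr]
    exact h1
  · intro i
    rw [phi_inl, phi_inr]
    exact h2
  · rw [phi_inr, phi_inr]
    exact h3
  · intro v u q hq hu
    rw [phi_inr, phi_inr, ← hu]
    exact h4 v q hq
  · intro v q hq
    have := good3.toGood2.ce_up hN hq
    omega

theorem U_UTri_hh {g : GL chevF4.Idx F} (hg : g ∈ chevF4.posUnipotent F) :
    UTri (fun a b => hh a < hh b) (g : Matrix chevF4.Idx chevF4.Idx F) := by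
  refine good3.toGood2.rG_induction (P := chevF4.IsPosRoot) (fun r h => h.1)
    (Q := fun g => UTri (fun a b => hh a < hh b) (g : Matrix chevF4.Idx chevF4.Idx F)) ?_ ?_ ?_ g hg
  · simpa using UTri_one _
  · intro a b ha hb
    simpa using UTri_mul (R := fun a b => hh a < hh b) (fun _ _ _ h1 h2 => lt_trans h1 h2)
      (fun _ _ h1 h2 => lt_asymm h1 h2) ha hb
  · intro r hr t h
    exact x_UTri_hh hr ((good3.toGood2.pos_iff hr).mp h) t

theorem UTri_hh_pow {M : Matrix chevF4.Idx chevF4.Idx F} (hM : UTri (fun a b => hh a < hh b) M) (j : ℕ)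
    (c row : chevF4.Idx) (h : ((M - 1) ^ j) row c ≠ 0) : hh (phi chevF4 c) + j ≤ hh (phi chevF4 row) := by
  induction j generalizing row with
  | zero =>
    simp only [pow_zero] at h
    have : row = c := by
      by_contra hne
      simp [Matrix.one_apply, hne] at h
    simp [this]
  | succ j ih =>
    rw [pow_succ', Matrix.mul_apply] at h
    obtain ⟨d, _, hd⟩ := Finset.exists_ne_zero_of_sum_ne_zero h
    have h3 := left_ne_zero_of_mul hd
    have h4 := right_ne_zero_of_mul hd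
    have h5 := ih d h4
    have h6 : row ≠ d := by
      intro he
      subst he
      simp [Matrix.sub_apply, hM.2] at h3
    have h7 : M row d ≠ 0 := by
      simpa [Matrix.sub_apply, Matrix.one_apply, h6] using h3
    have h8 := hM.1 d row h6 h7
    simp only at h8
    omega

theorem hh_phi_le (c : chevF4.Idx) : hh (phi chevF4 c) ≤ 22 := by
  rcases c with i | v
  · rw [phi_inl]
    decide +kernel
  · rw [phi_inr]
    exact hh_bd v

/-- Elements of `U` have `(u - 1)^23 = 0`. -/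
theorem U_pow_23 {g : GL chevF4.Idx F} (hg : g ∈ chevF4.posUnipotent F) :
    ((g : Matrix chevF4.Idx chevF4.Idx F) - 1) ^ 23 = 0 := by
  ext row c
  by_contra h
  have h1 := UTri_hh_pow (U_UTri_hh hg) _ c row h
  have := hh_phi_le row
  simp only [Matrix.zero_apply] at *
  omega

/-- In characteristic two, elements of `U` have `u^32 = 1`. -/
theorem U_pow_32 [CharP F 2] {g : GL chevF4.Idx F} (hg : g ∈ chevF4.posUnipotent F) : g ^ 32 = 1 := by
  apply Units.ext
  haveI : Nontrivial chevF4.Idx := ⟨⟨Sum.inl ⟨0, by decide⟩, Sum.inl ⟨1, by decide⟩, by simp⟩⟩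
  haveI : CharP (Matrix chevF4.Idx chevF4.Idx F) 2 := inferInstance
  haveI : Fact (Nat.Prime 2) := ⟨Nat.prime_two⟩
  have h1 : ((g : Matrix chevF4.Idx chevF4.Idx F) - 1) ^ 2 ^ 5 = (g : Matrix chevF4.Idx chevF4.Idx F) ^ 2 ^ 5 - 1 ^ 2 ^ 5 :=
    sub_pow_char_pow_of_commute 2 5 (Commute.one_right _)
  have h2 : ((g : Matrix chevF4.Idx chevF4.Idx F) - 1) ^ 2 ^ 5 = 0 := by
    rw [show (2 : ℕ) ^ 5 = 23 + 9 by norm_num, pow_add, U_pow_23 hg, zero_mul]
  rw [h2, one_pow] at h1
  have h3 := (sub_eq_zero.mp h1.symm)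
  simpa using h3

theorem wordMat_mem_group (w : List (ℕ × F)) {g : GL chevF4.Idx F}
    (hg : (g : Matrix chevF4.Idx chevF4.Idx F) = chevF4.wordMat F w) : g ∈ chevF4.group F := by
  induction w generalizing g with
  | nil =>
    have : g = 1 := Units.ext (by simpa [ChevalleyDatum.wordMat] using hg)
    rw [this]
    exact Subgroup.one_mem _
  | cons p w ih =>
    by_cases hr : p.1 < chevF4.nroots
    · have e : g = good3.xg hr p.2 * ((good3.xg hr p.2)⁻¹ * g) := by group
      rw [e]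
      refine Subgroup.mul_mem _ (Subgroup.subset_closure ⟨⟨p.1, hr⟩, p.2, by rw [good3.xg_val]; simp [ChevalleyDatum.x, hr]⟩) (ih ?_)
      have h1 : (((good3.xg hr p.2)⁻¹ * g : GL chevF4.Idx F) : Matrix chevF4.Idx chevF4.Idx F) =
          (((good3.xg hr p.2)⁻¹ : GL chevF4.Idx F) : Matrix chevF4.Idx chevF4.Idx F) * g := rfl
      rw [h1, hg]
      simp only [ChevalleyDatum.wordMat, List.map_cons, List.prod_cons]
      rw [← mul_assoc, ← good3.xg_val hr p.2, ← Units.val_mul, inv_mul_cancel]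
      simp
    · apply ih
      rw [hg]
      simp [ChevalleyDatum.wordMat, ChevalleyDatum.x, hr]

theorem twistedF4_le_group (e : ℕ) : twistedF4 F e ≤ chevF4.group F := by
  unfold twistedF4 ChevalleyDatum.genSubgroup
  rw [Subgroup.closure_le]
  rintro g ⟨w, -, hg⟩
  exact wordMat_mem_group w hg

/-- Two-elements of `F₄(K)` in characteristic two satisfy `x^32 = 1`. -/
theorem two_elt_pow_32 [Fintype F] [CharP F 2] {x : GL chevF4.Idx F} (hx : x ∈ chevF4.group F)
    (hp : ∃ j : ℕ, orderOf x = 2 ^ j) : x ^ 32 = 1 := by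
  haveI : Fact (Nat.Prime 2) := ⟨Nat.prime_two⟩
  let S := Cfsg.Agent.Lib.Known.ChevSt.chevSplit (F := F) good3 2
  let Syl : Sylow 2 ↥(chevF4.group F) := Sylow.ofCard S.U S.card_U
  let y' : ↥(chevF4.group F) := ⟨x, hx⟩
  have hy' : IsPGroup 2 (Subgroup.zpowers y') := by
    obtain ⟨k, hk⟩ := hp
    apply IsPGroup.of_card (n := k)
    rw [Nat.card_zpowers]
    have : orderOf y' = orderOf x := Subgroup.orderOf_mk x hx
    rw [this, hk]
  obtain ⟨Q, hQ⟩ := hy'.exists_le_sylow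
  obtain ⟨g, hg⟩ := MulAction.exists_smul_eq ↥(chevF4.group F) Q Syl
  have h3 : y' ∈ (Q : Subgroup ↥(chevF4.group F)) := hQ (Subgroup.mem_zpowers y')
  have h4 : g * y' * g⁻¹ ∈ (Syl : Subgroup ↥(chevF4.group F)) := by
    rw [← hg, Sylow.coe_subgroup_smul]
    have := Subgroup.smul_mem_pointwise_smul y' (MulAut.conj g) (Q : Subgroup ↥(chevF4.group F)) h3
    simpa [MulAut.conj_apply] using this
  have h5 : (g * y' * g⁻¹ : ↥(chevF4.group F)) ∈ (chevF4.posUnipotent F).subgroupOf (chevF4.group F) := h4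
  rw [Subgroup.mem_subgroupOf] at h5
  have h6 := U_pow_32 h5
  have h7 : ((g : GL chevF4.Idx F) * x * (g : GL chevF4.Idx F)⁻¹) ^ 32 = 1 := by
    simpa [y'] using h6
  rw [conj_pow] at h7
  have h8 : x ^ 32 = (g : GL chevF4.Idx F)⁻¹ * ((g : GL chevF4.Idx F) * x ^ 32 * (g : GL chevF4.Idx F)⁻¹) * (g : GL chevF4.Idx F) := by group
  rw [h8, h7]
  group

end Cfsg.Agent.Lib.Chev.TwF4
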