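import Cfsg.Agent.Lib.Chev.Tw.F4
import Cfsg.Agent.Lib.Chev.Tw.Core
import Cfsg.Agent.Lib.Chev.Tw.Frob2

/-!
The group ²F₄(q): the unipotent subgroup and the core of the Borel subgroup.
-/

set_option autoImplicit false
set_option maxRecDepth 1000000
set_option linter.unusedSimpArgs false
set_option linter.unusedVariables false
set_option linter.unusedSectionVars false

namespace Cfsg.Agent.Lib.Chev.TwF4

open Cfsg Cfsg.Lie Matrix Cfsg.Agent.Lib.BN Cfsg.Agent.Lib.Chev.Tw TabF4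

variable {K : Type*} [Field K] [CharP K 2]

theorem JJ_eq (i : Fin 2) : JJ i = ([[0, 3], [1, 2]] : List (List ℕ)).getD i [] := by
  fin_cases i <;> rfl

theorem ww_eq (i : Fin 2) : (ww i).map Fin.val = ([[0, 3], [1, 2, 1, 2]] : List (List ℕ)).getD i [] := by
  fin_cases i <;> rfl

theorem long_chk : chkLong fd.tbl W (fun i => ([[0, 3], [1, 2]] : List (List ℕ)).getD i [])
    (fun i => ([[0, 3], [1, 2, 1, 2]] : List (List ℕ)).getD i []) [0, 1, 0, 1, 0, 1, 0, 1] = true := by decide +kernel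

theorem hN24 : Good2.NN chevF4 = 24 := by decide

theorem Om_split (p1 p2 p3 p4 : K) :
    ∃ y ∈ rG chevF4 K (Qp chevF4 [1]), Om p1 p2 p3 p4 = xa p1 * y := by
  have m (r : ℕ) (hr : r < chevF4.nroots) (h1 : 24 ≤ r) (h2 : inSubT (tblOf chevF4) [1] r = false) (t : K) :
      good3.xg hr t ∈ rG chevF4 K (Qp chevF4 [1]) :=
    good3.xg_mem hr (good3.qp_of hr (by rw [hN24]; exact h1) h2) t
  refine ⟨xb p2 * xc p3 * xe p4, ?_, ?_⟩
  · exact Subgroup.mul_mem _ (Subgroup.mul_mem _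
      (m _ _ (by norm_num) (tbl_eq ▸ (by decide +kernel : inSubT fd.tbl [1] 25 = false)) _)
      (m _ _ (by norm_num) (tbl_eq ▸ (by decide +kernel : inSubT fd.tbl [1] 28 = false)) _))
      (m _ _ (by norm_num) (tbl_eq ▸ (by decide +kernel : inSubT fd.tbl [1] 30 = false)) _)
  · unfold Om
    simp only [mul_assoc]

theorem Tab_split (q1 q2 q3 q4 : K) :
    ∃ y ∈ rG chevF4 K (Qp chevF4 [2]), Tab q1 q2 q3 q4 = xb q1 * y := by
  have m (r : ℕ) (hr : r < chevF4.nroots) (h1 : 24 ≤ r) (h2 : inSubT (tblOf chevF4) [2] r = false) (t : K) :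
      good3.xg hr t ∈ rG chevF4 K (Qp chevF4 [2]) :=
    good3.xg_mem hr (good3.qp_of hr (by rw [hN24]; exact h1) h2) t
  refine ⟨xa q2 * xc q3 * xe q4, ?_, ?_⟩
  · exact Subgroup.mul_mem _ (Subgroup.mul_mem _
      (m _ _ (by norm_num) (tbl_eq ▸ (by decide +kernel : inSubT fd.tbl [2] 27 = false)) _)
      (m _ _ (by norm_num) (tbl_eq ▸ (by decide +kernel : inSubT fd.tbl [2] 28 = false)) _))
      (m _ _ (by norm_num) (tbl_eq ▸ (by decide +kernel : inSubT fd.tbl [2] 30 = false)) _)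
  · unfold Tab
    simp only [mul_assoc]

section

variable (f : K ≃+* K) (hf2 : ∀ t, f (f t) ^ 2 = t)
include hf2

theorem long : TwSys.LongW good3 JJ ww [0, 1, 0, 1, 0, 1, 0, 1] :=
  TwSys.long_of_chk JJ_eq ww_eq (fun i => TwSys.pp_inv (sys f hf2) i) _ (tbl_eq ▸ long_chk)

theorem nz (a : Fin chevF4.rank) : ∃ i, ∃ c ∈ (TT f).XJ (JJ i), ∃ d : K, d ≠ 0 ∧ ∃ y ∈ rG chevF4 K (Qp chevF4 [a.val]),
    c = good3.xg (good3.simple_lt a.isLt) d * y := by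
  obtain ⟨a, ha⟩ := a
  have ha2 : a < 4 := ha
  have hc0 : xP (f (1 : K)) * xQ 1 ∈ (TT f).XJ (JJ 0) := (X0_iff f hf2).mpr ⟨1, rfl⟩
  have hc1 : WW f (1 : K) 0 ∈ (TT f).XJ (JJ 1) := (X1_iff f hf2).mpr ⟨1, 0, rfl⟩
  interval_cases a
  · exact ⟨0, _, hc0, f 1, by simp, _, good3.xg_mem _ ((TT f).simple_Qp lin n3 (by simp)) _, rfl⟩
  · obtain ⟨y, hy, e⟩ := Om_split (f (1 : K)) 1 (f 1 * 1 + 0) (f 0 ^ 2)
    exact ⟨1, _, hc1, f 1, by simp, y, hy, e⟩
  · rw [WW, Om_eq] at hc1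
    obtain ⟨y, hy, e⟩ := Tab_split (1 : K) (f 1) (f 1 * 1 + 0 + 1 * f 1) (f 0 ^ 2 + 1 * f 1 ^ 2)
    exact ⟨1, _, hc1, 1, one_ne_zero, y, hy, e⟩
  · exact ⟨0, _, hc0, 1, one_ne_zero, _, good3.xg_mem _ ((TT f).simple_Qp lin n0 (by simp)) _, cmPQ _ _⟩

theorem core_bot : ((chevF4.borelSubgroup K ⊓ (TT f).AA JJ).subgroupOf ((TT f).AA JJ)).normalCore = ⊥ :=
  (sys f hf2).core_eq_bot (long f hf2) (nz f hf2)

theorem PQ_inj {t t' : K} (h : xP (f t) * xQ t = xP (f t') * xQ t') : t = t' := by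
  have h1 := (TT f).coord_inj lin n0 (J := [0]) (by simp)
    (good3.xg_mem _ ((TT f).simple_Qp lin n3 (by simp)) _)
    (good3.xg_mem _ ((TT f).simple_Qp lin n3 (by simp)) _) h
  exact f.injective h1

omit hf2 in
theorem WW_inj {t u t' u' : K} (h : WW f t u = WW f t' u') : t = t' ∧ u = u' := by
  unfold WW at h
  rw [Om_eq, Om_eq] at h
  obtain ⟨a1, a2, a3, a4⟩ := Tab_inj h
  subst a1
  rw [add_right_cancel_iff, add_right_inj] at a3
  exact ⟨rfl, a3⟩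

theorem card_X0 [Fintype K] : Nat.card ↥((TT f).XJ [0, 3]) = Fintype.card K := by
  have e : K ≃ ↥((TT f).XJ [0, 3]) := by
    refine Equiv.ofBijective (fun t => ⟨xP (f t) * xQ t, (X0_iff f hf2).mpr ⟨t, rfl⟩⟩) ⟨?_, ?_⟩
    · intro t t' h
      exact PQ_inj f hf2 (congrArg Subtype.val h)
    · rintro ⟨c, hc⟩
      obtain ⟨t, rfl⟩ := (X0_iff f hf2).mp hc
      exact ⟨t, rfl⟩
  rw [← Nat.card_congr e, Nat.card_eq_fintype_card]

theorem card_X1 [Fintype K] : Nat.card ↥((TT f).XJ [1, 2]) = Fintype.card K ^ 2 := by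
  have e : K × K ≃ ↥((TT f).XJ [1, 2]) := by
    refine Equiv.ofBijective (fun x => ⟨WW f x.1 x.2, (X1_iff f hf2).mpr ⟨x.1, x.2, rfl⟩⟩) ⟨?_, ?_⟩
    · rintro ⟨t, u⟩ ⟨t', u'⟩ h
      obtain ⟨e1, e2⟩ := WW_inj f (congrArg Subtype.val h)
      subst e1 e2
      rfl
    · rintro ⟨c, hc⟩
      obtain ⟨t, u, rfl⟩ := (X1_iff f hf2).mp hc
      exact ⟨(t, u), rfl⟩
  rw [← Nat.card_congr e, Nat.card_eq_fintype_card, Fintype.card_prod, pow_two]

theorem card_U1 [Fintype K] : Nat.card ↥(chevF4.posUnipotent K ⊓ (TT f).AA JJ) = Fintype.card K ^ 12 := by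
  rw [(sys f hf2).card_U1 (long f hf2)]
  have e0 : Nat.card ↥((TT f).XJ (JJ 0)) = Fintype.card K := card_X0 f hf2
  have e1 : Nat.card ↥((TT f).XJ (JJ 1)) = Fintype.card K ^ 2 := card_X1 f hf2
  simp only [List.map_cons, List.map_nil, List.prod_cons, List.prod_nil, e0, e1]
  ring

end

end Cfsg.Agent.Lib.Chev.TwF4
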