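import Cfsg.Agent.Lib.Chev.Tw.F4b
import Cfsg.Agent.Lib.Chev.Tw.F4w
import Cfsg.Agent.Lib.Chev.Tw.Dih

/-!
The Weyl group of ²F₄(q).
-/

set_option autoImplicit false
set_option maxRecDepth 1000000
set_option linter.unusedSimpArgs false
set_option linter.unusedVariables false
set_option linter.unusedSectionVars false

namespace Cfsg.Agent.Lib.Chev.TwF4

open Cfsg Cfsg.Lie Matrix Cfsg.Agent.Lib.BN Cfsg.Agent.Lib.Chev.Tw TabF4

variable {K : Type*} [Field K] [CharP K 2]

/-- The words for the generators. -/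
def wfL : List (List ℕ) := [[0, 3], [1, 2, 1, 2]]

/-- The positive roots of the orbits. -/
def spfL : List (List ℕ) := [[33, 24], [27, 25, 28, 30]]

theorem wt_chk : chkWT fd.tbl W chevF4.simple 2 (fun i => wfL.getD i []) (fun i => spfL.getD i []) words img nbr = true := by
  decide +kernel

theorem sp_chk (i : Fin 2) : chkSp (tblOf chevF4) (JJ i) (spfL.getD i []) = true := by
  fin_cases i
  · exact tbl_eq ▸ (by decide +kernel : chkSp fd.tbl [0, 3] [33, 24] = true)
  · exact tbl_eq ▸ (by decide +kernel : chkSp fd.tbl [1, 2] [27, 25, 28, 30] = true)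

theorem wtab (f : K ≃+* K) (hf2 : ∀ t, f (f t) ^ 2 = t) : TwSys.WTab good3 JJ ww (words.map (TwSys.LF 2)) :=
  TwSys.of_chk ww_eq sp_chk (fun i => TwSys.pp_inv (sys f hf2) i) words img nbr (tbl_eq ▸ wt_chk)

theorem ord_chk : (allLt 48 fun r => decide ((fun x => ppT W ([0, 3] ++ [1, 2, 1, 2]) x)^[8] r = r)) = true := by decide +kernel

theorem pL_append {ι : Type*} {w : ι → List (Fin chevF4.rank)} (a b : List ι) :
    TwSys.pL good3 w (a ++ b) = TwSys.pL good3 w a * TwSys.pL good3 w b := by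
  simp [TwSys.pL]

theorem N_hom [Fintype K] (f : K ≃+* K) (hf2 : ∀ t, f (f t) ^ 2 = t) :
    ∃ φ : ↥(chevF4.monomialSubgroup K ⊓ (TT f).AA JJ) →* DihedralGroup 8, Function.Surjective φ ∧
      φ.ker = (chevF4.diagonalSubgroup K ⊓ (TT f).AA JJ).subgroupOf (chevF4.monomialSubgroup K ⊓ (TT f).AA JJ) := by
  set a := good3.toGood2.pp (ww 0) with ha
  set b := good3.toGood2.pp (ww 1) with hb
  have ha2 : a * a = 1 := ((sys f hf2).orb 0).invol
  have hb2 : b * b = 1 := ((sys f hf2).orb 1).invol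
  have hai : a⁻¹ = a := inv_eq_of_mul_eq_one_left ha2
  have hbi : b⁻¹ = b := inv_eq_of_mul_eq_one_left hb2
  have hx8 : (a * b) ^ 8 = 1 := by
    have e : a * b = good3.toGood2.pp (ww 0 ++ ww 1) := by rw [Good2.pp_append]
    rw [e]
    ext r
    have h1 := (allLt_iff _ _).mp ord_chk r r.isLt
    have h2 := of_decide_eq_true h1
    rw [good3.pp_pow_val]
    exact h2
  have hcx : a * (a * b) * a⁻¹ = (a * b)⁻¹ := by
    rw [hai, _root_.mul_inv_rev, hai, hbi, ← mul_assoc, ha2, one_mul]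
  have hL := wtab f hf2
  let φ : DihedralGroup 8 →* Equiv.Perm (Fin chevF4.nroots) := dihHom a (a * b) hx8 ha2 hcx
  have hpow : ∀ n : ℕ, ∃ l, (a * b) ^ n = TwSys.pL good3 ww l := by
    intro n
    induction n with
    | zero => exact ⟨[], rfl⟩
    | succ n ih =>
      obtain ⟨l, hl⟩ := ih
      refine ⟨[0, 1] ++ l, ?_⟩
      rw [pow_succ', hl, pL_append]
      congr 1
  have key : ∀ l : List (Fin 2), ∃ x, φ x = TwSys.pL good3 ww l := by
    intro l
    induction l with
    | nil => exact ⟨1, by simp [TwSys.pL]⟩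
    | cons i l ih =>
      obtain ⟨x, hx⟩ := ih
      fin_cases i
      · refine ⟨DihedralGroup.sr 0 * x, ?_⟩
        rw [map_mul, hx, TwSys.pL_cons]
        congr 1
      · refine ⟨DihedralGroup.sr 1 * x, ?_⟩
        rw [map_mul, hx, TwSys.pL_cons]
        congr 1
        show a * (a * b) ^ (1 : ZMod 8).val = _
        have : (1 : ZMod 8).val = 1 := rfl
        rw [this, pow_one, ← mul_assoc, ha2, one_mul]
        rfl
  refine (sys f hf2).exists_hom hL φ ?_ ?_ ?_
  · rintro (i | i)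
    · obtain ⟨l, hl⟩ := hpow i.val
      obtain ⟨l', h1, e1⟩ := TwSys.pL_mem hL l
      exact ⟨l', h1, hl.trans e1⟩
    · obtain ⟨l, hl⟩ := hpow i.val
      obtain ⟨l', h1, e1⟩ := TwSys.pL_mem hL (0 :: l)
      refine ⟨l', h1, Eq.trans ?_ e1⟩
      rw [TwSys.pL_cons, ← hl]
      rfl
  · intro l _
    exact key l
  · rw [DihedralGroup.nat_card, List.length_map]
    rfl

end Cfsg.Agent.Lib.Chev.TwF4
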