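import Cfsg.Agent.Lib.Chev.Tw.F4d
import Cfsg.Agent.Lib.Chev.Tw.Pf

/-!
²F₄(q) is perfect and simple.
-/

set_option autoImplicit false
set_option maxRecDepth 1000000
set_option linter.unusedSimpArgs false
set_option linter.unusedVariables false
set_option linter.unusedSectionVars false

namespace Cfsg.Agent.Lib.Chev.TwF4

open Cfsg Cfsg.Lie Matrix Cfsg.Agent.Lib.BN Cfsg.Agent.Lib.Chev.Tw TabF4

variable {K : Type*} [Field K] [CharP K 2] (f : K ≃+* K)

theorem torus_u (u : Kˣ) {r : ℕ} (hr : r < chevF4.nroots) (t : K) :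
    good3.toGood2.torusHom (gc f (u, 1)) * good3.xg hr t * (good3.toGood2.torusHom (gc f (u, 1)))⁻¹ =
      good3.xg hr (((Units.map (f : K →* K) u ^ chevF4.cartan 0 r * u ^ chevF4.cartan 3 r : Kˣ) : K) * t) := by
  refine (good3.toGood2.torus_conj_x _ hr t).trans ?_
  congr 2
  have h := Fin.prod_univ_four (fun i : Fin 4 => ((gc f (u, 1) i ^ chevF4.cartan i r : Kˣ) : K))
  refine h.trans ?_
  have e0 : gc f (u, 1) (0 : Fin 4) = Units.map (f : K →* K) u := rfl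
  have e1 : gc f (u, 1) (1 : Fin 4) = Units.map (f : K →* K) 1 := rfl
  have e2 : gc f (u, 1) (2 : Fin 4) = 1 := rfl
  have e3 : gc f (u, 1) (3 : Fin 4) = u := rfl
  rw [e0, e1, e2, e3]
  simp

section

variable (u : Kˣ)

theorem cP (t : K) : good3.toGood2.torusHom (gc f (u, 1)) * xP t * (good3.toGood2.torusHom (gc f (u, 1)))⁻¹ = xP (f u ^ 2 * t) := by
  refine (torus_u f u _ t).trans ?_
  rw [show chevF4.cartan 0 (chevF4.simple 0) = 2 by decide +kernel, show chevF4.cartan 3 (chevF4.simple 0) = 0 by decide +kernel]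
  simp

theorem cQ (t : K) : good3.toGood2.torusHom (gc f (u, 1)) * xQ t * (good3.toGood2.torusHom (gc f (u, 1)))⁻¹ = xQ ((u : K) ^ 2 * t) := by
  refine (torus_u f u _ t).trans ?_
  rw [show chevF4.cartan 0 (chevF4.simple 3) = 0 by decide +kernel, show chevF4.cartan 3 (chevF4.simple 3) = 2 by decide +kernel]
  simp

theorem cb (t : K) : good3.toGood2.torusHom (gc f (u, 1)) * xb t * (good3.toGood2.torusHom (gc f (u, 1)))⁻¹ = xb ((u : K)⁻¹ * t) := by
  refine (torus_u f u _ t).trans ?_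
  rw [show chevF4.cartan 0 25 = 0 by decide +kernel, show chevF4.cartan 3 25 = -1 by decide +kernel]
  simp

theorem ca (t : K) : good3.toGood2.torusHom (gc f (u, 1)) * xa t * (good3.toGood2.torusHom (gc f (u, 1)))⁻¹ = xa (f (u : K)⁻¹ * t) := by
  refine (torus_u f u _ t).trans ?_
  rw [show chevF4.cartan 0 27 = -1 by decide +kernel, show chevF4.cartan 3 27 = 0 by decide +kernel]
  simp

theorem cc (t : K) : good3.toGood2.torusHom (gc f (u, 1)) * xc t * (good3.toGood2.torusHom (gc f (u, 1)))⁻¹ = xc (f (u : K)⁻¹ * (u : K)⁻¹ * t) := by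
  refine (torus_u f u _ t).trans ?_
  rw [show chevF4.cartan 0 28 = -1 by decide +kernel, show chevF4.cartan 3 28 = -1 by decide +kernel]
  simp

theorem ce (t : K) : good3.toGood2.torusHom (gc f (u, 1)) * xe t * (good3.toGood2.torusHom (gc f (u, 1)))⁻¹ = xe (f (u : K)⁻¹ ^ 2 * (u : K)⁻¹ * t) := by
  refine (torus_u f u _ t).trans ?_
  rw [show chevF4.cartan 0 30 = -2 by decide +kernel, show chevF4.cartan 3 30 = -1 by decide +kernel]
  simp

theorem cOm (p1 p2 p3 p4 : K) : good3.toGood2.torusHom (gc f (u, 1)) * Om p1 p2 p3 p4 * (good3.toGood2.torusHom (gc f (u, 1)))⁻¹ =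
    Om (f (u : K)⁻¹ * p1) ((u : K)⁻¹ * p2) (f (u : K)⁻¹ * (u : K)⁻¹ * p3) (f (u : K)⁻¹ ^ 2 * (u : K)⁻¹ * p4) := by
  unfold Om
  rw [← ca f u, ← cb f u, ← cc f u, ← ce f u]
  group

end

variable (hf2 : ∀ t, f (f t) ^ 2 = t)
include hf2

theorem WW_mul (t u t' u' : K) : WW f t u * WW f t' u' = WW f (t + t') (t' * f t + u + u') := by
  unfold WW
  rw [Om_eq, Om_eq, Om_eq, Tab_mul]
  simp only [map_add]
  have h2 : (2 : K) = 0 := two_zero
  have hF := hf2 t
  congr 1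
  · linear_combination (-(f t * t' + f t' * t)) * h2
  · simp only [map_mul]
    linear_combination (-(f t') ^ 2) * hF + (-(t * f t' ^ 2 + f t' * f (f t) * f u + f t' * f (f t) * f u' + f u * f u' + f t * f t' * (t + t'))) * h2

theorem WW_conj (u : Kˣ) (t w : K) : good3.toGood2.torusHom (gc f (u, 1)) * WW f t w * (good3.toGood2.torusHom (gc f (u, 1)))⁻¹ =
    WW f ((u : K)⁻¹ * t) (f (u : K)⁻¹ * (u : K)⁻¹ * w) := by
  unfold WW
  rw [cOm]
  have hF := hf2 (u : K)⁻¹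
  congr 1
  · rw [map_mul]
  · simp only [map_mul]
    ring
  · simp only [map_mul]
    rw [mul_pow, mul_pow, hF]
    ring

theorem ne_of (y : K) (hy : y ≠ 1) (hy0 : y ≠ 0) : f y * y ≠ 1 := by
  intro h
  have h1 : f y = y⁻¹ := eq_inv_of_mul_eq_one_left h
  have h2 : f (f y) = y := by
    rw [h1, map_inv₀, h1, inv_inv]
  have h3 := hf2 y
  rw [h2, pow_two] at h3
  exact hy (mul_left_cancel₀ hy0 (by rw [h3, mul_one]))

theorem X0_mem (t : K) : xP (f t) * xQ t ∈ (TT f).AA JJ := (TT f).X_le_AA JJ 0 ((X0_iff f hf2).mpr ⟨t, rfl⟩)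
theorem X1_mem (t w : K) : WW f t w ∈ (TT f).AA JJ := (TT f).X_le_AA JJ 1 ((X1_iff f hf2).mpr ⟨t, w, rfl⟩)

variable {u : Kˣ} (hu : (u : K) ^ 2 ≠ 1)
include hu

theorem D0 (t : K) : xP (f t) * xQ t ∈ (TT f).DD JJ := by
  refine (TT f).scale_mem' JJ (ξ := fun t => xP (f t) * xQ t) (X0_mem f hf2) (fun a b => ?_) (mem0 f hf2 u) hu (fun t => ?_) t
  · show xP (f a) * xQ a * (xP (f b) * xQ b) = xP (f (a + b)) * xQ (a + b)
    rw [map_add]
    have e1 : xP (f a + f b) = xP (f a) * xP (f b) := (good3.xg_mul _ _ _).symm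
    have e2 : xQ (a + b) = xQ a * xQ b := (good3.xg_mul _ _ _).symm
    have e3 := cmPQ (f b) a
    rw [e1, e2]
    calc xP (f a) * xQ a * (xP (f b) * xQ b) = xP (f a) * (xQ a * xP (f b)) * xQ b := by group
      _ = _ := by rw [← e3]; group
  · show good3.toGood2.torusHom (gc f (u, 1)) * (xP (f t) * xQ t) * (good3.toGood2.torusHom (gc f (u, 1)))⁻¹ =
      xP (f ((u : K) ^ 2 * t)) * xQ ((u : K) ^ 2 * t)
    rw [map_mul, map_pow, ← cP f u, ← cQ f u]
    group

theorem ne1 : (u : K)⁻¹ ≠ 1 := by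
  intro h
  apply hu
  have : (u : K) = 1 := by simpa using h
  rw [this, one_pow]

theorem D1a (w : K) : WW f 0 w ∈ (TT f).DD JJ := by
  have hne : f (u : K)⁻¹ * (u : K)⁻¹ ≠ 1 := ne_of f hf2 _ (ne1 f hf2 hu) (by simp)
  refine (TT f).scale_mem' JJ (ξ := fun w => WW f 0 w) (fun w => X1_mem f hf2 0 w) (fun a b => ?_) (mem0 f hf2 u) hne (fun w => ?_) w
  · show WW f 0 a * WW f 0 b = WW f 0 (a + b)
    rw [WW_mul f hf2]
    simp
  · refine (WW_conj f hf2 u 0 w).trans ?_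
    rw [mul_zero]

theorem D1b (t : K) : WW f t 0 ∈ (TT f).DD JJ := by
  refine (TT f).scale_mem JJ (ξ := fun t => WW f t 0) (fun t => X1_mem f hf2 t 0) (fun a b => ?_) (mem0 f hf2 u) (ne1 f hf2 hu) (fun t => ?_) t
  · show (WW f (a + b) 0)⁻¹ * (WW f a 0 * WW f b 0) ∈ _
    have e : WW f a 0 * WW f b 0 = WW f (a + b) 0 * WW f 0 (b * f a) := by
      rw [WW_mul f hf2, WW_mul f hf2]
      simp
    rw [e, inv_mul_cancel_left]
    exact D1a f hf2 hu _
  · refine (WW_conj f hf2 u t 0).trans ?_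
    rw [mul_zero]

theorem D1 (t w : K) : WW f t w ∈ (TT f).DD JJ := by
  have e : WW f t w = WW f t 0 * WW f 0 w := by
    rw [WW_mul f hf2]
    simp
  rw [e]
  exact Subgroup.mul_mem _ (D1b f hf2 hu t) (D1a f hf2 hu w)

theorem X_le_DD (i : Fin 2) : (TT f).XJ (JJ i) ≤ (TT f).DD JJ := by
  intro x hx
  fin_cases i
  · obtain ⟨t, rfl⟩ := (X0_iff f hf2).mp hx
    exact D0 f hf2 hu t
  · obtain ⟨t, w, rfl⟩ := (X1_iff f hf2).mp hx
    exact D1 f hf2 hu t w

theorem perfect : commutator ↥((TT f).AA JJ) = ⊤ :=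
  (sys f hf2).perfect_of_X (X_le_DD f hf2 hu)

omit hu in
theorem adj01 : good3.toGood2.pp (ww 0) * good3.toGood2.pp (ww 1) * good3.toGood2.pp (ww 0) * good3.toGood2.pp (ww 1) ≠ 1 :=
  good3.adj_of_chk _ _ (r := 33) (by decide) (by decide +kernel)
omit hu in
theorem adj10 : good3.toGood2.pp (ww 1) * good3.toGood2.pp (ww 0) * good3.toGood2.pp (ww 1) * good3.toGood2.pp (ww 0) ≠ 1 :=
  good3.adj_of_chk _ _ (r := 33) (by decide) (by decide +kernel)

theorem simple_AA : IsSimpleGroup ↥((TT f).AA JJ) ∧ ¬ IsMulCommutative ↥((TT f).AA JJ) := by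
  obtain ⟨c, hc, hne⟩ := (sys f hf2).ntX 0
  exact (sys f hf2).simple_of_perfect' (perfect f hf2 hu) (core_bot f hf2)
    (conn_pair 0 1 (by decide) _ (adj01 f hf2) (adj10 f hf2)) hc hne

end Cfsg.Agent.Lib.Chev.TwF4
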